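import Cfsg.Agent.BlockCount.Functionals

/-!
Integer matrices with Gram matrix `1 + e J` and `e + m` rows, `m` the number of columns, with a
positive vector orthogonal to the columns: they consist of one signed identity matrix and `e`
constant rows of signs.
-/

set_option autoImplicit false
set_option linter.unusedSectionVars false

namespace Cfsg.Agent.CycIso

open scoped Classical

universe u w

variable {X : Type u} [Fintype X] {ι : Type w} [Fintype ι]

theorem sign_of_sq_sum {S : Finset X} {c : X → ℤ} (h0 : ∀ x ∈ S, c x ≠ 0)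
    (hsum : ∑ x ∈ S, c x ^ 2 ≤ (S.card : ℤ)) : ∀ x ∈ S, c x = 1 ∨ c x = -1 := by
  intro x hx
  have h1 : ∀ y ∈ S, (1 : ℤ) ≤ c y ^ 2 := fun y hy => by
    have : 0 < c y ^ 2 := lt_of_le_of_ne (sq_nonneg _) (Ne.symm (pow_ne_zero 2 (h0 y hy)))
    omega
  have h2 := Finset.sum_le_sum fun y hy => h1 y (Finset.erase_subset x S hy)
  have h3 := Finset.add_sum_erase S (fun y => c y ^ 2) hx
  rw [Finset.sum_const, nsmul_eq_mul, mul_one, Finset.card_erase_of_mem hx] at h2
  have h4 : 1 ≤ S.card := Finset.card_pos.2 ⟨x, hx⟩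
  push_cast [Nat.cast_sub h4] at h2
  exact sq_eq_one_iff.1 (le_antisymm (by linarith) (h1 x hx))

/-- The last step. -/
theorem finish_split {a : X → ι → ℤ} {e : ℕ} (hrow : ∀ x, ∃ i, a x i ≠ 0)
    (hgram : ∀ i l, ∑ x, a x i * a x l = (if i = l then 1 else 0) + (e : ℤ))
    (hcard : Fintype.card X = e + Fintype.card ι) {v : X → ℤ} (hv0 : ∀ x, 0 < v x)
    (hv : ∀ l, ∑ x, v x * a x l = 0) (i₀ : ι) {y : ι → X} (hy : Function.Injective y)
    {σ : ι → ℤ} (hσ : ∀ i, σ i = 1 ∨ σ i = -1)
    (hval : ∀ i l, a (y i) l = if i = l then σ i else 0)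
    (hconst : ∀ x, (∀ i, y i ≠ x) → ∀ i l, a x i = a x l) :
    ∃ (y : ι → X) (s : ℤ), Function.Injective y ∧ (s = 1 ∨ s = -1) ∧
      (∀ i l, a (y i) l = if i = l then s else 0) ∧
      ∀ x, (∀ i, y i ≠ x) → ∃ d : ℤ, (d = 1 ∨ d = -1) ∧ ∀ l, a x l = d := by
  set S := Finset.univ.filter (fun x => ∀ i, y i ≠ x) with hS
  have hsplit : ∀ f : X → ℤ, ∑ x, f x = ∑ x ∈ S, f x + ∑ i, f (y i) := by
    intro f
    rw [← Finset.sum_filter_add_sum_filter_not Finset.univ (fun x => ∀ i, y i ≠ x) f]
    congr 1
    rw [← Finset.sum_image (g := y) (fun i _ l _ h => hy h)]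
    refine Finset.sum_congr (Finset.ext fun x => ?_) fun _ _ => rfl
    simp [eq_comm]
  have hScard : S.card = e := by
    have h1 := hsplit fun _ => 1
    simp only [Finset.sum_const, nsmul_eq_mul, mul_one, Finset.card_univ, hcard] at h1
    push_cast at h1
    linarith
  have hσ2 : ∀ i, σ i * σ i = 1 := fun i => by rcases hσ i with h | h <;> simp [h]
  have hsq : ∑ x ∈ S, a x i₀ ^ 2 = (e : ℤ) := by
    have h := hgram i₀ i₀
    rw [if_pos rfl, hsplit] at h
    have e1 : ∑ i, a (y i) i₀ * a (y i) i₀ = 1 := by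
      rw [Finset.sum_eq_single i₀ (fun i _ hi => by rw [hval, if_neg hi, mul_zero]) (by simp),
        hval, if_pos rfl, hσ2]
    simp only [pow_two]
    linarith
  have hone := sign_of_sq_sum (S := S) (c := fun x => a x i₀) (fun x hx => by
    obtain ⟨i, hi⟩ := hrow x
    rwa [hconst x (Finset.mem_filter.1 hx).2 i i₀] at hi) (by rw [hScard]; exact hsq.le)
  have hsum : ∀ l, σ l * v (y l) = σ i₀ * v (y i₀) := by
    have hl : ∀ l, σ l * v (y l) = - ∑ x ∈ S, v x * a x i₀ := by
      intro l
      have h := hv l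
      rw [hsplit, Finset.sum_eq_single l (fun i _ hi => by rw [hval, if_neg hi, mul_zero]) (by simp),
        hval, if_pos rfl, Finset.sum_congr rfl fun x hx => by
          rw [hconst x (Finset.mem_filter.1 hx).2 l i₀]] at h
      linarith
    exact fun l => (hl l).trans (hl i₀).symm
  have hs : ∀ l, σ l = σ i₀ := by
    intro l
    have := hsum l
    rcases hσ l with h | h <;> rcases hσ i₀ with h' | h' <;> rw [h, h'] at this ⊢ <;>
      linarith [hv0 (y l), hv0 (y i₀)]
  refine ⟨y, σ i₀, hy, hσ i₀, fun i l => by rw [hval, hs i], fun x hx => ?_⟩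
  exact ⟨a x i₀, hone x (Finset.mem_filter.2 ⟨Finset.mem_univ _, hx⟩),
    fun l => hconst x hx l i₀⟩

/-- The structure of the matrix. -/
theorem exists_split [Nonempty ι] {a : X → ι → ℤ} {e : ℕ} (hrow : ∀ x, ∃ i, a x i ≠ 0)
    (hgram : ∀ i l, ∑ x, a x i * a x l = (if i = l then 1 else 0) + (e : ℤ))
    (hcard : Fintype.card X = e + Fintype.card ι) {v : X → ℤ} (hv0 : ∀ x, 0 < v x)
    (hv : ∀ l, ∑ x, v x * a x l = 0) :
    ∃ (y : ι → X) (s : ℤ), Function.Injective y ∧ (s = 1 ∨ s = -1) ∧
      (∀ i l, a (y i) l = if i = l then s else 0) ∧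
      ∀ x, (∀ i, y i ≠ x) → ∃ d : ℤ, (d = 1 ∨ d = -1) ∧ ∀ l, a x l = d := by
  obtain ⟨i₀⟩ := ‹Nonempty ι›
  rcases (show Fintype.card ι = 1 ∨ 2 ≤ Fintype.card ι by
    have := Fintype.card_pos_iff.2 (⟨i₀⟩ : Nonempty ι); omega) with h1 | h2
  · obtain ⟨j, hj⟩ := Fintype.card_eq_one_iff.1 h1
    haveI : Subsingleton ι := ⟨fun a b => (hj a).trans (hj b).symm⟩
    have hone := sign_of_sq_sum (S := Finset.univ) (c := fun x => a x i₀) (fun x _ => by
      obtain ⟨i, hi⟩ := hrow x
      rwa [Subsingleton.elim i i₀] at hi) (by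
        simp only [pow_two, hgram, if_pos, Finset.card_univ, hcard, h1]
        push_cast
        linarith)
    obtain ⟨x₀⟩ : Nonempty X := Fintype.card_pos_iff.1 (by omega)
    refine finish_split hrow hgram hcard hv0 hv i₀ (y := fun _ => x₀)
      (fun a b _ => Subsingleton.elim a b) (σ := fun _ => a x₀ i₀)
      (fun _ => hone x₀ (Finset.mem_univ _))
      (fun i l => by rw [if_pos (Subsingleton.elim i l), Subsingleton.elim l i₀])
      fun x _ i l => by rw [Subsingleton.elim i l]
  · obtain ⟨y, hy, hdiff⟩ := BlockCount.exists_special hgram h2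
    have hconst : ∀ x, (∀ i, y i ≠ x) → ∀ i l, a x i = a x l := by
      intro x hx i l
      by_contra hne
      have hil : i ≠ l := fun h => hne (by rw [h])
      rcases (hdiff hil x).1 hne with h | h <;> exact hx _ h.symm
    have hother : ∀ {i l l' : ι}, i ≠ l → i ≠ l' → a (y i) l = a (y i) l' := by
      intro i l l' h h'
      by_contra hne
      have hll : l ≠ l' := fun e => hne (by rw [e])
      rcases (hdiff hll (y i)).1 hne with e | e
      · exact h (hy e)
      · exact h' (hy e)
    choose o ho using fun i : ι => Fintype.exists_ne_of_one_lt_card (by omega) i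
    set σ : ι → ℤ := fun i => a (y i) i - a (y i) (o i) with hσ
    have hσ1 : ∀ i, σ i = 1 ∨ σ i = -1 := by
      intro i
      have h1 := (BlockCount.gram_diff hgram (ho i).symm).1 (y i)
      have h2 : σ i ≠ 0 := sub_ne_zero.2 ((hdiff (ho i).symm _).2 (Or.inl rfl))
      have h3 : 0 < σ i ^ 2 := lt_of_le_of_ne (sq_nonneg _) (Ne.symm (pow_ne_zero 2 h2))
      have h4 : σ i ^ 2 ≤ 1 := h1
      exact sq_eq_one_iff.1 (by omega)
    have hσ2 : ∀ i, σ i * σ i = 1 := fun i => by rcases hσ1 i with h | h <;> simp [h]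
    set T : ι → ℤ := fun i => σ i * a (y i) (o i) with hT
    have hval : ∀ i l, a (y i) l = σ i * ((if i = l then 1 else 0) + T i) := by
      intro i l
      rw [mul_add, hT, ← mul_assoc, hσ2, one_mul]
      by_cases h : i = l
      · subst h; rw [if_pos rfl, hσ]; ring
      · rw [if_neg h, mul_zero, zero_add]; exact hother h (ho i).symm
    clear_value σ T
    have hTc : ∀ i, T i = T i₀ := by
      intro i
      rcases eq_or_ne i i₀ with rfl | h
      · rfl
      obtain ⟨-, c, s⟩ := BlockCount.gram_diff hgram h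
      have hS : (Finset.univ.filter fun x => a x i ≠ a x i₀) = {y i, y i₀} := by
        ext x; simp [hdiff h x]
      rw [hS, Finset.sum_pair (hy.ne h), hval, hval, hval, hval, if_pos rfl, if_neg h,
        if_neg h.symm, if_pos rfl] at s
      have h5 : 2 * T i = 2 * T i₀ := by
        linear_combination s - (2 * T i + 1) * hσ2 i + (2 * T i₀ + 1) * hσ2 i₀
      omega
    set τ := T i₀ with hτ
    simp only [hTc] at hval
    -- the bound
    have hτle : (Fintype.card ι : ℤ) * τ ^ 2 + 2 * τ ≤ 0 := by
      have h := hgram i₀ i₀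
      rw [if_pos rfl, ← Finset.sum_filter_add_sum_filter_not Finset.univ
        (fun x => ∀ i, y i ≠ x)] at h
      have e2 : (Finset.univ.filter fun x => ¬ ∀ i, y i ≠ x) = Finset.univ.image y := by
        ext x; simp [eq_comm]
      rw [e2, Finset.sum_image (fun i _ l _ h => hy h)] at h
      have e1 : ∀ i, a (y i) i₀ * a (y i) i₀ = (if i = i₀ then 1 + 2 * τ else 0) + τ ^ 2 := by
        intro i
        rw [hval]
        split_ifs
        · linear_combination (1 + τ) * (1 + τ) * hσ2 i
        · linear_combination τ * τ * hσ2 i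
      simp only [e1, Finset.sum_add_distrib, Finset.sum_ite_eq', Finset.mem_univ, if_true,
        Finset.sum_const, nsmul_eq_mul, Finset.card_univ] at h
      set S := Finset.univ.filter (fun x => ∀ i, y i ≠ x) with hS
      have hcS : S.card + Fintype.card ι = e + Fintype.card ι := by
        rw [← hcard, ← Finset.card_univ (α := X),
          ← Finset.card_filter_add_card_filter_not (s := Finset.univ) (fun x => ∀ i, y i ≠ x), e2,
          Finset.card_image_of_injective _ hy, Finset.card_univ]
      have hge : (S.card : ℤ) ≤ ∑ x ∈ S, a x i₀ * a x i₀ := by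
        have h1 : ∀ x ∈ S, (1 : ℤ) ≤ a x i₀ * a x i₀ := by
          intro x hx
          obtain ⟨i, hi⟩ := hrow x
          rw [hconst x (Finset.mem_filter.1 hx).2 i i₀] at hi
          have := mul_self_pos.2 hi
          omega
        simpa using Finset.sum_le_sum h1
      have hce : S.card = e := by omega
      rw [hce] at hge
      linarith
    rcases eq_or_ne τ 0 with hτ0 | hτ0
    · refine finish_split hrow hgram hcard hv0 hv i₀ hy hσ1 (fun i l => ?_) hconst
      rw [hval, hτ0, add_zero]
      split_ifs <;> simp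
    · have hm2 : (2 : ℤ) ≤ Fintype.card ι := by exact_mod_cast h2
      have hsq1 : 1 ≤ τ ^ 2 := by
        have : 0 < τ ^ 2 := lt_of_le_of_ne (sq_nonneg _) (Ne.symm (pow_ne_zero 2 hτ0))
        omega
      have h6 : 2 * τ ^ 2 ≤ (Fintype.card ι : ℤ) * τ ^ 2 :=
        mul_le_mul_of_nonneg_right hm2 (sq_nonneg τ)
      have hτneg : τ < 0 := by linarith
      have hτ1 : τ = -1 := by
        by_contra hne
        have h7 : τ ≤ -2 := by omega
        nlinarith
      have hprod : (Fintype.card ι : ℤ) * (-τ) ≤ 2 := by rw [hτ1] at hτle ⊢; linarith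
      have hm : Fintype.card ι = 2 := by
        rw [hτ1] at hprod
        omega
      have htwo : ∀ i l, l ≠ i → l = o i := by
        intro i l hl
        by_contra hne
        have : ({i, l, o i} : Finset ι).card ≤ 2 := hm ▸ Finset.card_le_univ _
        rw [Finset.card_eq_three.2 ⟨i, l, o i, hl.symm, (ho i).symm, hne, rfl⟩] at this
        omega
      have hoo : ∀ i, o (o i) = i := fun i => (htwo (o i) i (ho i).symm).symm
      refine finish_split hrow hgram hcard hv0 hv i₀ (y := fun i => y (o i))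
        (fun i l h => by rw [← hoo i, ← hoo l, hy h]) (σ := fun i => - σ (o i))
        (fun i => by rcases hσ1 (o i) with h | h <;> simp [h]) (fun i l => ?_)
        (fun x hx => hconst x fun i => by rw [← hoo i]; exact hx (o i))
      rw [hval, hτ1]
      rcases eq_or_ne i l with rfl | hne
      · rw [if_neg (ho i), if_pos rfl]; ring
      · rw [if_pos (htwo i l hne.symm).symm, if_neg hne]; ring

end Cfsg.Agent.CycIso
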