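import Cfsg.Prelude.Def_BlockLocal
import Cfsg.Agent.Char.Orthogonality
import Cfsg.Agent.Char.Integrality
import Cfsg.Agent.Block.LocalRing

/-!
Two perfect isometries out of all the characters of one group compose to a perfect isometry.
-/

set_option autoImplicit false
set_option linter.style.haveILetI false
set_option linter.unusedSectionVars false

namespace Cfsg.Agent.CycIso

open Cfsg
open scoped ComplexConjugate Classical

universe u v w

variable {F : Type u} [Group F] [Fintype F]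

noncomputable local instance instFintypeConjClasses : Fintype (ConjClasses F) :=
  haveI : Finite (ConjClasses F) := Finite.of_surjective _ ConjClasses.mk_surjective
  Fintype.ofFinite _

/-- An average over the group as a sum over the classes. -/
theorem inv_card_mul_sum (g : F → ℂ) (hg : IsClassFunction F g) :
    (Nat.card F : ℂ)⁻¹ * ∑ w : F, g w = ∑ C : ConjClasses F,
      g C.out / (Nat.card (Subgroup.centralizer ({C.out} : Set F)) : ℂ) := by
  rw [← Finset.sum_fiberwise Finset.univ (ConjClasses.mk (α := F)) g, Finset.mul_sum]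
  refine Finset.sum_congr rfl fun C _ => ?_
  have hout : ConjClasses.mk C.out = C := Quotient.out_eq C
  have hset : (Finset.univ.filter fun w : F => ConjClasses.mk w = C) =
      Finset.univ.filter fun w : F => IsConj C.out w := by
    ext w
    simp only [Finset.mem_filter, Finset.mem_univ, true_and]
    conv_lhs => rw [← hout]
    rw [ConjClasses.mk_eq_mk_iff_isConj]
    exact ⟨IsConj.symm, IsConj.symm⟩
  have hconst : ∀ w ∈ Finset.univ.filter (fun w : F => IsConj C.out w), g w = g C.out := by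
    intro w hw
    obtain ⟨c, hc⟩ := isConj_iff.1 (Finset.mem_filter.1 hw).2
    rw [← hc, hg C.out c]
  rw [hset, Finset.sum_congr rfl hconst, Finset.sum_const, nsmul_eq_mul]
  have h : (Finset.univ.filter fun w : F => IsConj C.out w).card *
      Nat.card (Subgroup.centralizer ({C.out} : Set F)) = Nat.card F := by
    convert Char.card_isConj_mul_card_centralizer C.out
  have h1 : ((Finset.univ.filter fun w : F => IsConj C.out w).card : ℂ) *
      (Nat.card (Subgroup.centralizer ({C.out} : Set F)) : ℂ) = (Nat.card F : ℂ) := by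
    rw [← Nat.cast_mul, h]
  have h2 : (Nat.card (Subgroup.centralizer ({C.out} : Set F)) : ℂ) ≠ 0 :=
    Nat.cast_ne_zero.2 Nat.card_pos.ne'
  have h3 : (Nat.card F : ℂ) ≠ 0 := Nat.cast_ne_zero.2 Nat.card_pos.ne'
  field_simp
  linear_combination g C.out * h1

theorem centralizer_singleton_inv {G : Type*} [Group G] (w : G) :
    Subgroup.centralizer ({w⁻¹} : Set G) = Subgroup.centralizer ({w} : Set G) := by
  ext g
  simp only [Subgroup.mem_centralizer_singleton_iff]
  constructor
  · intro h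
    have h' : Commute g w⁻¹ := h
    simpa using h'.inv_right.eq
  · intro h
    exact (Commute.inv_right h).eq

variable {G : Type v} [Group G] {H : Type w} [Group H] {p : ℕ} {M : Ideal AlgInt}

theorem kernel_univ (I : IrrCharacter F → IrrCharacter G) (ε : IrrCharacter F → ℤ) (x : G) (y : F) :
    signedBijectionKernel (Set.univ : Set (IrrCharacter F)) I ε x y =
      ∑ η : IrrCharacter F, (ε η : ℂ) * (I η : G → ℂ) x * (η : F → ℂ) y := by
  rw [signedBijectionKernel, finsum_mem_univ, finsum_eq_sum_of_fintype]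

/-- The composition. -/
theorem exists_perfectIsometry_comp [M.IsPrime] {B : Set (IrrCharacter G)}
    {c : Set (IrrCharacter H)} {I₁ : IrrCharacter F → IrrCharacter G} {ε₁ : IrrCharacter F → ℤ}
    {I₂ : IrrCharacter F → IrrCharacter H} {ε₂ : IrrCharacter F → ℤ}
    (h₁ : IsPerfectIsometry p M (Set.univ : Set (IrrCharacter F)) B I₁ ε₁)
    (h₂ : IsPerfectIsometry p M (Set.univ : Set (IrrCharacter F)) c I₂ ε₂) :
    ∃ (I : IrrCharacter H → IrrCharacter G) (ε : IrrCharacter H → ℤ),
      IsPerfectIsometry p M c B I ε := by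
  haveI : Nonempty (IrrCharacter F) := ⟨⟨_, Char.isIrrCharacter_const_one⟩⟩
  obtain ⟨hb₁, hs₁, hp₁⟩ := h₁
  obtain ⟨hb₂, hs₂, hp₂⟩ := h₂
  set J := Function.invFunOn I₂ Set.univ with hJ
  have hJI : ∀ η, J (I₂ η) = η := fun η => hb₂.injOn.leftInvOn_invFunOn trivial
  have hIJ : ∀ ξ ∈ c, I₂ (J ξ) = ξ := fun ξ hξ => Function.invFunOn_eq (hb₂.surjOn hξ)
  refine ⟨fun ξ => I₁ (J ξ), fun ξ => ε₁ (J ξ) * ε₂ (J ξ), ⟨?_, ?_, ?_⟩, ?_, ?_⟩
  · exact fun ξ _ => hb₁.mapsTo trivial
  · intro ξ hξ ξ' hξ' h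
    rw [← hIJ ξ hξ, ← hIJ ξ' hξ', hb₁.injOn trivial trivial h]
  · intro χ hχ
    obtain ⟨η, -, rfl⟩ := hb₁.surjOn hχ
    exact ⟨I₂ η, hb₂.mapsTo trivial, by simp only [hJI]⟩
  · intro ξ _
    rcases hs₁ (J ξ) trivial with h | h <;> rcases hs₂ (J ξ) trivial with h' | h' <;> simp [h, h']
  intro x y
  set μ₁ := signedBijectionKernel (Set.univ : Set (IrrCharacter F)) I₁ ε₁ with hμ₁
  set μ₂ := signedBijectionKernel (Set.univ : Set (IrrCharacter F)) I₂ ε₂ with hμ₂
  have hsum : signedBijectionKernel c (fun ξ => I₁ (J ξ)) (fun ξ => ε₁ (J ξ) * ε₂ (J ξ)) x y =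
      ∑ η : IrrCharacter F,
        ((ε₁ η : ℂ) * (I₁ η : G → ℂ) x) * ((ε₂ η : ℂ) * (I₂ η : H → ℂ) y) := by
    rw [← finsum_eq_sum_of_fintype, ← finsum_mem_univ, signedBijectionKernel]
    refine (finsum_mem_eq_of_bijOn I₂ hb₂ fun η _ => ?_).symm
    simp only [hJI]
    push_cast
    ring
  have hg : IsClassFunction F (fun w => μ₁ x w * μ₂ y w⁻¹) := by
    intro w t
    have e1 : ∀ η : IrrCharacter F, (η : F → ℂ) (t * w * t⁻¹) = (η : F → ℂ) w :=
      fun η => Char.irr_isClassFunction η.2 w t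
    have e2 : ∀ η : IrrCharacter F, (η : F → ℂ) ((t * w * t⁻¹)⁻¹) = (η : F → ℂ) w⁻¹ := by
      intro η
      rw [show (t * w * t⁻¹)⁻¹ = t * w⁻¹ * t⁻¹ by group]
      exact Char.irr_isClassFunction η.2 w⁻¹ t
    simp only [hμ₁, hμ₂, kernel_univ, e1, e2]
  have hconv : signedBijectionKernel c (fun ξ => I₁ (J ξ)) (fun ξ => ε₁ (J ξ) * ε₂ (J ξ)) x y =
      ∑ C : ConjClasses F, μ₁ x C.out * μ₂ y C.out⁻¹ /
        (Nat.card (Subgroup.centralizer ({C.out} : Set F)) : ℂ) := by
    rw [hsum, ← inv_card_mul_sum _ hg]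
    simp only [hμ₁, hμ₂, kernel_univ, Finset.sum_mul_sum]
    rw [Finset.mul_sum]
    symm
    simp only [Finset.mul_sum]
    rw [Finset.sum_comm]
    refine Finset.sum_congr rfl fun η _ => ?_
    rw [Finset.sum_comm, Finset.sum_eq_single η]
    · have h := Char.sum_mul_conj_eq_card_mul_classInner (η : F → ℂ) (η : F → ℂ)
      rw [Char.classInner_irr_self η.2, mul_one] at h
      have h3 : (Nat.card F : ℂ) ≠ 0 := Nat.cast_ne_zero.2 Nat.card_pos.ne'
      calc ∑ w : F, (Nat.card F : ℂ)⁻¹ * ((ε₁ η : ℂ) * (I₁ η : G → ℂ) x * (η : F → ℂ) w *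
            ((ε₂ η : ℂ) * (I₂ η : H → ℂ) y * (η : F → ℂ) w⁻¹))
          = (Nat.card F : ℂ)⁻¹ * ((ε₁ η : ℂ) * (I₁ η : G → ℂ) x *
              ((ε₂ η : ℂ) * (I₂ η : H → ℂ) y)) *
                ∑ w : F, (η : F → ℂ) w * conj ((η : F → ℂ) w) := by
            rw [Finset.mul_sum]
            refine Finset.sum_congr rfl fun w _ => ?_
            rw [Char.irr_inv η.2]
            ring
        _ = _ := by rw [h]; field_simp
    · intro η' _ hne
      have h := Char.sum_mul_conj_eq_card_mul_classInner (η : F → ℂ) (η' : F → ℂ)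
      rw [Char.classInner_irr_ne η.2 η'.2 (fun e => hne (Subtype.ext e.symm)), mul_zero] at h
      calc ∑ w : F, (Nat.card F : ℂ)⁻¹ * ((ε₁ η : ℂ) * (I₁ η : G → ℂ) x * (η : F → ℂ) w *
            ((ε₂ η' : ℂ) * (I₂ η' : H → ℂ) y * (η' : F → ℂ) w⁻¹))
          = (Nat.card F : ℂ)⁻¹ * ((ε₁ η : ℂ) * (I₁ η : G → ℂ) x *
              ((ε₂ η' : ℂ) * (I₂ η' : H → ℂ) y)) *
                ∑ w : F, (η : F → ℂ) w * conj ((η' : F → ℂ) w) := by
            rw [Finset.mul_sum]
            refine Finset.sum_congr rfl fun w _ => ?_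
            rw [Char.irr_inv η'.2]
            ring
        _ = 0 := by rw [h, mul_zero]
    · simp
  refine ⟨?_, ?_, ?_⟩
  · rw [hconv, Finset.sum_div]
    refine (Block.localRing M).sum_mem fun C _ => ?_
    have h1 := (hp₁ x C.out).1
    have h2 := (hp₂ y C.out⁻¹).2.1
    rw [centralizer_singleton_inv] at h2
    rw [show μ₁ x C.out * μ₂ y C.out⁻¹ / (Nat.card (Subgroup.centralizer ({C.out} : Set F)) : ℂ) /
        (Nat.card (Subgroup.centralizer ({x} : Set G)) : ℂ) =
      (μ₁ x C.out / (Nat.card (Subgroup.centralizer ({x} : Set G)) : ℂ)) *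
        (μ₂ y C.out⁻¹ / (Nat.card (Subgroup.centralizer ({C.out} : Set F)) : ℂ)) by ring]
    exact (Block.localRing M).mul_mem h1 h2
  · rw [hconv, Finset.sum_div]
    refine (Block.localRing M).sum_mem fun C _ => ?_
    have h1 := (hp₁ x C.out).2.1
    have h2 := (hp₂ y C.out⁻¹).1
    rw [show μ₁ x C.out * μ₂ y C.out⁻¹ / (Nat.card (Subgroup.centralizer ({C.out} : Set F)) : ℂ) /
        (Nat.card (Subgroup.centralizer ({y} : Set H)) : ℂ) =
      (μ₁ x C.out / (Nat.card (Subgroup.centralizer ({C.out} : Set F)) : ℂ)) *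
        (μ₂ y C.out⁻¹ / (Nat.card (Subgroup.centralizer ({y} : Set H)) : ℂ)) by ring]
    exact (Block.localRing M).mul_mem h1 h2
  · by_cases hxy : IsPRegular p x ↔ IsPRegular p y
    · exact Or.inl hxy
    · refine Or.inr ?_
      rw [hconv]
      refine Finset.sum_eq_zero fun C _ => ?_
      rcases (hp₁ x C.out).2.2 with h | h
      · rcases (hp₂ y C.out⁻¹).2.2 with h' | h'
        · refine absurd (h.trans ?_) hxy
          rw [h']
          simp only [IsPRegular, orderOf_inv]
        · rw [h', mul_zero, zero_div]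
      · rw [h, zero_mul, zero_div]

end Cfsg.Agent.CycIso
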