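import Cfsg.Agent.CycIso.Frob
import Cfsg.Agent.BlockCount.CyclicData
import Cfsg.Agent.BlockCover.PrincipalType
import Mathlib.GroupTheory.SemidirectProduct

/-!
The data of a block of a subgroup containing the normalizer of the defect group and of the block of
the group it induces; the semidirect product of the residues by a group of multipliers.
-/

set_option autoImplicit false
set_option linter.style.haveILetI false
set_option linter.unusedSectionVars false

namespace Cfsg.Agent.CycIso

open MonoidAlgebra Cfsg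
open Cfsg.Agent.BrauerPairs
open Cfsg.Agent.BlockCount (CycData)
open scoped Classical

universe u

variable {p : ℕ} [hp : Fact p.Prime] {M : Ideal AlgInt} [M.IsPrime] [CharP (Block.ResF M) p]
  {G : Type u} [Group G] [Fintype G]

/-- A pair of a block of a subgroup gives a pair of the induced block. -/
theorem pairOf_lifts {L : Subgroup G} {a' : PairIdx M L} {a : PairIdx M G} (hl : Lifts L a' a)
    {B : Blk M G} {c : Blk M L} (h : PairOf (blockSysTop M) (pairSys M L) p c a')
    (hind : IsInducedBlock M L c.1 B.1) : PairOf (blockSysTop M) (pairSys M G) p B a := by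
  haveI := Fintype.ofFinite L
  obtain ⟨P, f⟩ := a
  obtain ⟨P', f'⟩ := a'
  obtain ⟨h1, h2, h3⟩ := hl
  simp only at h1 h2 h3
  refine ⟨h1 ▸ h.1.map _, ?_⟩
  show (pairSys M G P).lam f (trunc P ((blockSysTop M).idem B)) = 1
  have hmap : ((Subgroup.centralizer (P' : Set L)).map L.subtype).map
      (MulAut.conj (1 : G)).toMonoidHom = Subgroup.centralizer (P : Set G) := by
    rw [centralizer_map_subtype (by rw [h1]; exact h2), h1,
      map_conj_of_mem_normalizer (one_mem _)]
  set z := (blockSysTop M).idem B with hz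
  have hzc : CentralIn (⊤ : Subgroup G) z := (blockSysTop M).central_idem B
  have hta : CentralIn ((Subgroup.centralizer (P' : Set L)).map L.subtype) (trunc P z) := by
    rw [centralizer_map_subtype (by rw [h1]; exact h2), h1]
    exact centralIn_trunc_of_top hzc P
  have e := BlockSys.lam_cj (mapSys (pairSys M L P')) (pairSys M G P) 1 hmap (i := f') (j := f)
    (by rw [cj_one]; exact h3) hta
  rw [cj_one] at e
  rw [e]
  show (pairSys M L P').lam f' (Block.restr L (trunc P z)) = 1
  have hrt : Block.restr L (trunc P z) = trunc P' (Block.restr L z) := by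
    refine Block.groupAlgebra_ext fun g => ?_
    have hiff : (g : G) ∈ Subgroup.centralizer (P : Set G) ↔ g ∈ Subgroup.centralizer (P' : Set L) := by
      rw [← h1, ← centralizer_map_subtype (by rw [h1]; exact h2)]
      exact ⟨fun ⟨g', hg', he⟩ => Subtype.ext he ▸ hg', fun hg => ⟨g, hg, rfl⟩⟩
    by_cases hg : g ∈ Subgroup.centralizer (P' : Set L)
    · rw [Block.coeff_restr, coeff_trunc_mem _ (hiff.2 hg), coeff_trunc_mem _ hg, Block.coeff_restr]
    · rw [Block.coeff_restr, coeff_trunc_notMem _ (fun h => hg (hiff.1 h)),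
        coeff_trunc_notMem _ hg]
  rw [hrt, h.lam_trunc (centralIn_top_of_isCentralElt
    ((isCentralElt_of_centralIn_top hzc).restr L))]
  show Block.lam M _ (Block.restr L z) = 1
  rw [Block.lam_restr_of_isInducedBlock hind (blkChar_mem M c) (blkChar_mem M B)
    (isCentralElt_of_centralIn_top hzc)]
  exact (blockSysTop M).lam_idem_self B

/-- The generator seen in the subgroup. -/
theorem el_coe {L : Subgroup G} (K : CycData p M G) (K' : CycData p M L)
    (hx : ((K'.x : L) : G) = K.x) (hb : K'.b = K.b) (n : ℕ) :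
    ((K'.el (n : ZMod (p ^ K'.b)) : L) : G) = K.el (n : ZMod (p ^ K.b)) := by
  simp only [CycData.el, ZMod.val_natCast, Subgroup.coe_pow, hx, hb]

theorem exists_cycData_pair {P : Subgroup G} (hcyc : IsCyclic P)
    (hP1 : P ≠ ⊥) {B : Set (IrrCharacter G)} (hB : IsPBlock M B)
    (hPD : IsDefectGroup p M B P) {H : Subgroup G}
    (hN : Subgroup.normalizer (P : Set G) ≤ H) {c : Set (IrrCharacter H)}
    (hcD : IsDefectGroup p M c (P.subgroupOf H)) (hc : IsInducedBlock M H c B) :
    ∃ (b : ℕ) (x : G) (x' : H) (f : Blk M (Subgroup.centralizer (Subgroup.zpowers x : Set G)))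
      (f' : Blk M (Subgroup.centralizer (Subgroup.zpowers x' : Set H))),
      Subgroup.zpowers x = P ∧ b ≠ 0 ∧ orderOf x = p ^ b ∧ orderOf x' = p ^ b ∧ (x' : G) = x ∧
      IsMaximalBrauerPair p M B (Subgroup.zpowers x) f.1 ∧
      IsMaximalBrauerPair p M c (Subgroup.zpowers x') f'.1 ∧
      Lifts H (⟨Subgroup.zpowers x', f'⟩ : PairIdx M H) ⟨Subgroup.zpowers x, f⟩ := by
  obtain ⟨x, rfl⟩ := (Subgroup.isCyclic_iff_exists_zpowers_eq_top P).1 hcyc
  have hPp : IsPGroup p (Subgroup.zpowers x) := Block.isDefectGroup_isPGroup hPD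
  obtain ⟨b, hb⟩ := IsPGroup.iff_orderOf.1 hPp ⟨x, Subgroup.mem_zpowers x⟩
  rw [← Subgroup.orderOf_coe] at hb
  simp only at hb
  have hb0 : b ≠ 0 := by
    rintro rfl
    rw [pow_zero, orderOf_eq_one_iff] at hb
    exact hP1 (by rw [hb, Subgroup.zpowers_one_eq_bot])
  have hxH : x ∈ H := hN (Subgroup.le_normalizer (Subgroup.mem_zpowers x))
  set x' : H := ⟨x, hxH⟩ with hx'
  have hsub : (Subgroup.zpowers x).subgroupOf H = Subgroup.zpowers x' := by
    ext g
    simp only [Subgroup.mem_subgroupOf, Subgroup.mem_zpowers_iff]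
    exact exists_congr fun k => ⟨fun h => Subtype.ext (by simpa [hx'] using h),
      fun h => by rw [← h]; simp [hx']⟩
  rw [hsub] at hcD
  haveI := Fintype.ofFinite H
  set cB : Blk M H := ⟨c, hc.1⟩
  obtain ⟨f', hf'⟩ := exists_maxPair_of_isDef (S := pairSys M H)
    (isDef_of_isDefectGroup (B := cB) hcD)
  have hC : Subgroup.centralizer
      (((Subgroup.zpowers x').map H.subtype : Subgroup G) : Set G) ≤ H := by
    rw [MonoidHom.map_zpowers]
    exact (Subgroup.centralizer_le_normalizer _).trans hN
  obtain ⟨⟨Q, f⟩, hl⟩ := exists_lifts_up (L := H) (⟨Subgroup.zpowers x', f'⟩ : PairIdx M H) hC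
  obtain rfl : Q = Subgroup.zpowers x :=
    hl.1.symm.trans (MonoidHom.map_zpowers _ _)
  refine ⟨b, x, x', f, f', rfl, hb0, hb, ?_, rfl, ?_, ?_, hl⟩
  · rw [← Subgroup.orderOf_coe]; exact hb
  · exact (isMaximalBrauerPair_iff (⟨B, hB⟩ : Blk M G) ⟨Subgroup.zpowers x, f⟩).2
      (maxPair_of_isDef (pairOf_lifts hl hf'.1 hc) (isDef_of_isDefectGroup hPD))
  · exact (isMaximalBrauerPair_iff cB ⟨Subgroup.zpowers x', f'⟩).2 hf'

/-- The action of multipliers on the residues. -/
def mulHom {q : ℕ} (E : Subgroup (ZMod q)ˣ) : E →* MulAut (Multiplicative (ZMod q)) where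
  toFun r :=
    { toFun := fun a => Multiplicative.ofAdd (((r : (ZMod q)ˣ) : ZMod q) * a.toAdd)
      invFun := fun a => Multiplicative.ofAdd ((↑((r : (ZMod q)ˣ)⁻¹) : ZMod q) * a.toAdd)
      left_inv := fun a => by
        simp [← mul_assoc]
      right_inv := fun a => by
        simp [← mul_assoc]
      map_mul' := fun a b => by
        simp [mul_add] }
  map_one' := by
    ext a
    simp
  map_mul' r r' := by
    ext a
    simp [mul_assoc]

/-- The semidirect product. -/
abbrev FrobGroup {q : ℕ} (E : Subgroup (ZMod q)ˣ) : Type :=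
  SemidirectProduct (Multiplicative (ZMod q)) E (mulHom E)

noncomputable instance {q : ℕ} [NeZero q] (E : Subgroup (ZMod q)ˣ) : Fintype (FrobGroup E) :=
  Fintype.ofEquiv _ SemidirectProduct.equivProd.symm

/-- The semidirect product as such data. -/
noncomputable def frobGroupData {q : ℕ} [NeZero q] (E : Subgroup (ZMod q)ˣ)
    (hfree : ∀ r ∈ E, ∀ l : ZMod q, l ≠ 0 → (r : ZMod q) * l = l → r = 1) :
    FrobData q E (FrobGroup E) where
  el j := SemidirectProduct.inl (Multiplicative.ofAdd j)
  mult := E.subtype.comp SemidirectProduct.rightHom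
  el_add i j := by rw [ofAdd_add, map_mul]
  el_injective i j h := Multiplicative.ofAdd.injective (SemidirectProduct.inl_injective h)
  conj_el g j := by
    refine SemidirectProduct.ext ?_ ?_
    · rw [SemidirectProduct.mul_left, SemidirectProduct.mul_left, SemidirectProduct.left_inl,
        SemidirectProduct.mul_right, SemidirectProduct.right_inl, mul_one,
        SemidirectProduct.inv_left, map_inv (mulHom E), MulAut.apply_inv_self, mul_right_comm,
        mul_inv_cancel, one_mul, SemidirectProduct.left_inl]
      rfl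
    · simp only [SemidirectProduct.mul_right, SemidirectProduct.right_inl, mul_one,
        SemidirectProduct.inv_right, mul_inv_cancel]
  mult_range := by
    rw [MonoidHom.range_comp, MonoidHom.range_eq_top.2 SemidirectProduct.rightHom_surjective,
      ← MonoidHom.range_eq_map, Subgroup.range_subtype]
  mult_ker g := by
    constructor
    · intro h
      have h1 : g.right = 1 := Subtype.ext h
      refine ⟨g.left.toAdd, SemidirectProduct.ext ?_ ?_⟩
      · simp
      · simp [h1]
    · rintro ⟨j, rfl⟩
      simp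
  free := hfree

end Cfsg.Agent.CycIso
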