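import Cfsg.Agent.CharInd.Basic
import Cfsg.Agent.CharInd.Induced
import Cfsg.Agent.CharInd.Linear
import Cfsg.Agent.Char.Virtual
import Cfsg.Agent.Char.Orthogonality
import Cfsg.Agent.BlkChar.CycloAvg
import Cfsg.Agent.OddLocal.Basic

/-!
The irreducible characters of a semidirect product of a cyclic group by a group of multipliers
acting freely on its non-trivial elements.
-/

set_option autoImplicit false
set_option linter.style.haveILetI false
set_option linter.unusedSectionVars false

namespace Cfsg.Agent.CycIso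

open Cfsg
open Cfsg.Agent.BlkChar.Cyclo (conj_stdAddChar)
open scoped ComplexConjugate Classical

universe u

variable {q : ℕ} [NeZero q]

/-- The character sum over the residues. -/
theorem sum_stdAddChar_mul (c : ZMod q) :
    ∑ d : ZMod q, (ZMod.stdAddChar (d * c) : ℂ) = if c = 0 then (q : ℂ) else 0 := by
  rw [AddChar.sum_mulShift c (ZMod.isPrimitive_stdAddChar _), ZMod.card]
  split_ifs <;> simp

/-- The sum of a function over the group of multipliers times a residue. -/
noncomputable def orbSum (E : Subgroup (ZMod q)ˣ) (i j : ZMod q) : ℂ :=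
  ∑ r : E, (ZMod.stdAddChar (((r : (ZMod q)ˣ) : ZMod q) * i * j) : ℂ)

/-- A group with a self-centralizing cyclic normal subgroup, presented by a generator, acting
through the multipliers in `E`. -/
structure FrobData (q : ℕ) [NeZero q] (E : Subgroup (ZMod q)ˣ) (F : Type u) [Group F] [Fintype F] where
  /-- The embedding of the residues. -/
  el : ZMod q → F
  /-- The multiplier of an element. -/
  mult : F →* (ZMod q)ˣ
  el_add : ∀ i j, el (i + j) = el i * el j
  el_injective : Function.Injective el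
  conj_el : ∀ g j, g * el j * g⁻¹ = el ((mult g : ZMod q) * j)
  mult_range : mult.range = E
  mult_ker : ∀ g, mult g = 1 ↔ g ∈ Set.range el
  free : ∀ r ∈ E, ∀ l : ZMod q, l ≠ 0 → (r : ZMod q) * l = l → r = 1

namespace FrobData

variable {E : Subgroup (ZMod q)ˣ} {F : Type u} [Group F] [Fintype F] (D : FrobData q E F)

theorem el_zero : D.el 0 = 1 := by
  have h := D.el_add 0 0
  rw [add_zero] at h
  exact mul_eq_left.1 h.symm

/-- The cyclic normal subgroup. -/
noncomputable def Q : Subgroup F := D.mult.ker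

theorem mem_Q {g : F} : g ∈ D.Q ↔ ∃ j, D.el j = g :=
  (MonoidHom.mem_ker.trans (D.mult_ker g))

theorem el_mem (j : ZMod q) : D.el j ∈ D.Q := D.mem_Q.2 ⟨j, rfl⟩

instance : D.Q.Normal := MonoidHom.normal_ker _

/-- The residues as the elements of the cyclic subgroup. -/
noncomputable def eQ : ZMod q ≃ D.Q :=
  Equiv.ofBijective (fun j => ⟨D.el j, D.el_mem j⟩)
    ⟨fun _ _ h => D.el_injective (congrArg Subtype.val h), fun g => by
      obtain ⟨j, hj⟩ := D.mem_Q.1 g.2
      exact ⟨j, Subtype.ext hj⟩⟩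

theorem eQ_apply (j : ZMod q) : ((D.eQ j : D.Q) : F) = D.el j := rfl

theorem el_eQ_symm (g : D.Q) : D.el (D.eQ.symm g) = (g : F) := by
  rw [← D.eQ_apply, Equiv.apply_symm_apply]

theorem card_Q : Nat.card D.Q = q := by
  rw [← Nat.card_congr D.eQ, Nat.card_zmod]

theorem mult_mem (g : F) : D.mult g ∈ E :=
  (SetLike.ext_iff.1 D.mult_range _).1 ⟨g, rfl⟩

theorem exists_of_mem {r : (ZMod q)ˣ} (hr : r ∈ E) : ∃ g, D.mult g = r :=
  (SetLike.ext_iff.1 D.mult_range r).2 hr

include D in
theorem card_eq : Nat.card F = q * Nat.card E := by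
  have h1 : Nat.card D.mult.range = Nat.card E :=
    congrArg (fun S : Subgroup (ZMod q)ˣ => Nat.card S) D.mult_range
  have h2 := Subgroup.card_mul_index D.Q
  rw [D.card_Q, Q, Subgroup.index_ker, h1] at h2
  exact h2.symm

theorem card_fiber {r : (ZMod q)ˣ} (hr : r ∈ E) :
    (Finset.univ.filter fun g : F => D.mult g = r).card = q := by
  obtain ⟨g₀, rfl⟩ := D.exists_of_mem hr
  refine Eq.trans ?_ D.card_Q
  rw [Nat.card_eq_fintype_card, ← Finset.card_univ]
  refine Finset.card_bij' (fun g hg => (⟨g₀⁻¹ * g, MonoidHom.mem_ker.2 (by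
      rw [map_mul, map_inv, (Finset.mem_filter.1 hg).2, inv_mul_cancel])⟩ : D.Q))
    (fun k _ => g₀ * (k : F)) (fun _ _ => Finset.mem_univ _)
    (fun k _ => Finset.mem_filter.2 ⟨Finset.mem_univ _, by
      rw [map_mul, MonoidHom.mem_ker.1 k.2, mul_one]⟩)
    (fun g _ => mul_inv_cancel_left _ _) (fun k _ => Subtype.ext (inv_mul_cancel_left _ _))

theorem sum_comp_mult (f : (ZMod q)ˣ → ℂ) :
    ∑ g : F, f (D.mult g) = (q : ℂ) * ∑ r : E, f r := by
  rw [← Finset.sum_fiberwise_of_maps_to' (t := Finset.univ.filter (· ∈ E)) (fun g _ =>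
    Finset.mem_filter.2 ⟨Finset.mem_univ _, D.mult_mem g⟩) f, Finset.mul_sum]
  rw [Finset.sum_subtype (Finset.univ.filter (· ∈ E)) (p := (· ∈ E)) (by simp)]
  exact Finset.sum_congr rfl fun r _ => by
    rw [Finset.sum_const, D.card_fiber r.2, nsmul_eq_mul]

/-- The linear character of the cyclic subgroup. -/
noncomputable def psi (i : ZMod q) : D.Q →* ℂˣ :=
  MonoidHom.toHomUnits
    { toFun := fun g => (ZMod.stdAddChar (i * D.eQ.symm g) : ℂ)
      map_one' := by
        rw [show D.eQ.symm 1 = 0 from D.eQ.injective (Subtype.ext (by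
          rw [Equiv.apply_symm_apply, D.eQ_apply, D.el_zero, Subgroup.coe_one])), mul_zero,
          AddChar.map_zero_eq_one]
      map_mul' := fun g h => by
        rw [show D.eQ.symm (g * h) = D.eQ.symm g + D.eQ.symm h from D.el_injective (by
          rw [D.el_add, D.el_eQ_symm, D.el_eQ_symm, D.el_eQ_symm, Subgroup.coe_mul]), mul_add,
          AddChar.map_add_eq_mul] }

theorem psi_apply (i j : ZMod q) :
    ((D.psi i (D.eQ j) : ℂˣ) : ℂ) = ZMod.stdAddChar (i * j) := by
  simp [psi]

/-- The induced character. -/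
noncomputable def ind (i : ZMod q) : F → ℂ := indFun D.Q (fun g => ((D.psi i g : ℂˣ) : ℂ))

theorem isCharacter_ind (i : ZMod q) : IsCharacter F (D.ind i) :=
  CharInd.isCharacter_indFun _ (Char.isCharacter_of_irr (CharInd.irr_of_linHom _))

theorem ind_el (i j : ZMod q) : D.ind i (D.el j) = orbSum E i j := by
  rw [ind, show D.el j = ((D.eQ j : D.Q) : F) from rfl, CharInd.indFun_normal_mem, D.card_Q]
  have e : ∀ x : F, ((D.psi i ⟨x * (D.eQ j : F) * x⁻¹,
      (inferInstance : D.Q.Normal).conj_mem _ (D.eQ j).2 x⟩ : ℂˣ) : ℂ) =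
      ZMod.stdAddChar (i * ((D.mult x : ZMod q) * j)) := by
    intro x
    rw [← D.psi_apply]
    congr 2
    exact Subtype.ext (D.conj_el x j)
  rw [Finset.sum_congr rfl fun x _ => e x,
    D.sum_comp_mult fun r => (ZMod.stdAddChar (i * ((r : ZMod q) * j)) : ℂ),
    inv_mul_cancel_left₀ (Nat.cast_ne_zero.2 (NeZero.ne q)), orbSum]
  exact Finset.sum_congr rfl fun r _ => by congr 1; ring

theorem classInner_ind {φ : F → ℂ} (hφ : IsClassFunction F φ) (i : ZMod q) :
    classInner (D.ind i) φ = (q : ℂ)⁻¹ * ∑ j, ZMod.stdAddChar (i * j) * conj (φ (D.el j)) := by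
  rw [ind, CharInd.classInner_indFun_left _ _ hφ, classInner, D.card_Q]
  congr 1
  exact (Fintype.sum_equiv D.eQ _ _ fun j => by rw [D.psi_apply, D.eQ_apply]).symm

theorem classInner_ind_ind {i : ZMod q} (hi : i ≠ 0) (i' : ZMod q) :
    classInner (D.ind i) (D.ind i') =
      if ∃ r ∈ E, (r : ZMod q) * i' = i then 1 else 0 := by
  rw [D.classInner_ind (Char.isCharacter_isClassFunction (D.isCharacter_ind i'))]
  have e : ∀ j, (ZMod.stdAddChar (i * j) : ℂ) * conj (D.ind i' (D.el j)) =
      ∑ r : E, (ZMod.stdAddChar (j * (i - ((r : (ZMod q)ˣ) : ZMod q) * i')) : ℂ) := by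
    intro j
    rw [D.ind_el, orbSum, map_sum, Finset.mul_sum]
    refine Finset.sum_congr rfl fun r _ => ?_
    rw [conj_stdAddChar, ← AddChar.map_add_eq_mul]
    congr 1
    ring
  rw [Finset.sum_congr rfl fun j _ => e j, Finset.sum_comm,
    Finset.sum_congr rfl fun r _ => sum_stdAddChar_mul _]
  have hq : (q : ℂ) ≠ 0 := Nat.cast_ne_zero.2 (NeZero.ne q)
  split_ifs with h
  · obtain ⟨r₀, hr₀, h₀⟩ := h
    rw [Finset.sum_eq_single (⟨r₀, hr₀⟩ : E), if_pos (sub_eq_zero.2 h₀.symm),
      inv_mul_cancel₀ hq]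
    · intro r _ hne
      refine if_neg fun h1 => hne (Subtype.ext ?_)
      have hi' : i' ≠ 0 := fun h' => hi (by rw [← h₀, h', mul_zero])
      have h3 := D.free ((r₀ : (ZMod q)ˣ)⁻¹ * r) (E.mul_mem (E.inv_mem hr₀) r.2) i' hi' (by
        rw [Units.val_mul, mul_assoc, ← sub_eq_zero.1 h1, ← h₀, ← mul_assoc, Units.inv_mul,
          one_mul])
      exact (inv_mul_eq_one.1 h3).symm
    · simp
  · refine mul_eq_zero_of_right _ (Finset.sum_eq_zero fun r _ => if_neg fun h1 => h ?_)
    exact ⟨r, r.2, (sub_eq_zero.1 h1).symm⟩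

/-- The irreducible characters attached to the non-zero residues. -/
theorem isIrr_ind {i : ZMod q} (hi : i ≠ 0) : IsIrrCharacter F (D.ind i) := by
  refine Char.isIrrCharacter_iff_classInner.2 ⟨D.isCharacter_ind i, ?_⟩
  rw [D.classInner_ind_ind hi, if_pos ⟨1, E.one_mem, by simp⟩]

/-- Triviality on the cyclic subgroup. -/
def IsTriv (η : IrrCharacter F) : Prop := ∀ j, (η : F → ℂ) (D.el j) = (η : F → ℂ) 1

theorem exists_mult_eq (r : E) : ∃ g, D.mult g = (r : (ZMod q)ˣ) := D.exists_of_mem r.2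

/-- The characters of the quotient. -/
noncomputable def multE : F →* E := D.mult.codRestrict E D.mult_mem

/-- The lift of a character of the group of multipliers. -/
noncomputable def lin (ν : IrrCharacter E) : IrrCharacter F :=
  ⟨fun g => (ν : E → ℂ) (D.multE g), by
    obtain ⟨f, hf⟩ := CharInd.exists_linHom_of_degree_one (Char.isCharacter_of_irr ν.2)
      (CharInd.irr_one_of_comm (fun a b => mul_comm a b) ν.2)
    rw [show (fun g => (ν : E → ℂ) (D.multE g)) = fun g => ((f.comp D.multE g : ℂˣ) : ℂ) from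
      funext fun g => (hf _).symm]
    exact CharInd.irr_of_linHom _⟩

theorem lin_one (ν : IrrCharacter E) : (D.lin ν : F → ℂ) 1 = 1 := by
  show (ν : E → ℂ) (D.multE 1) = 1
  rw [map_one]
  exact CharInd.irr_one_of_comm (fun a b => mul_comm a b) ν.2

theorem lin_el (ν : IrrCharacter E) (j : ZMod q) : (D.lin ν : F → ℂ) (D.el j) = 1 := by
  show (ν : E → ℂ) (D.multE (D.el j)) = 1
  rw [show D.multE (D.el j) = 1 from Subtype.ext ((D.mult_ker _).2 ⟨j, rfl⟩)]
  exact CharInd.irr_one_of_comm (fun a b => mul_comm a b) ν.2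

theorem lin_injective : Function.Injective D.lin := by
  intro ν ν' h
  refine Subtype.ext (funext fun r => ?_)
  obtain ⟨g, hg⟩ := D.exists_mult_eq r
  have h1 := congrFun (congrArg Subtype.val h) g
  have e : D.multE g = r := Subtype.ext hg
  simpa [lin, e] using h1

/-- The classification of the irreducible characters. -/
theorem cases (η : IrrCharacter F) :
    (∃ ν, D.lin ν = η) ∨ ∃ i, i ≠ 0 ∧ (η : F → ℂ) = D.ind i := by
  by_contra hcon
  push Not at hcon
  obtain ⟨hlin, hind⟩ := hcon
  have hconst : ∀ j, (η : F → ℂ) (D.el j) = (η : F → ℂ) 1 := by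
    set a : ZMod q → ℂ := fun i => ∑ j, (ZMod.stdAddChar (i * j) : ℂ) * conj ((η : F → ℂ) (D.el j))
    have ha : ∀ i, i ≠ 0 → a i = 0 := by
      intro i hi
      have h1 := D.classInner_ind (Char.irr_isClassFunction η.2) i
      rw [Char.classInner_irr_ne (D.isIrr_ind hi) η.2 (fun h => hind i hi h.symm)] at h1
      exact (mul_eq_zero.1 h1.symm).resolve_left (inv_ne_zero (Nat.cast_ne_zero.2 (NeZero.ne q)))
    have hinv : ∀ j₀, (q : ℂ) * conj ((η : F → ℂ) (D.el j₀)) = a 0 := by
      intro j₀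
      calc (q : ℂ) * conj ((η : F → ℂ) (D.el j₀))
          = ∑ j, conj ((η : F → ℂ) (D.el j)) *
              ∑ i : ZMod q, (ZMod.stdAddChar (i * (j - j₀)) : ℂ) := by
            rw [Finset.sum_eq_single j₀]
            · rw [sum_stdAddChar_mul, if_pos (sub_self _), mul_comm]
            · intro j _ hj; rw [sum_stdAddChar_mul, if_neg (sub_ne_zero.2 hj), mul_zero]
            · simp
        _ = ∑ i : ZMod q, (ZMod.stdAddChar (-(i * j₀)) : ℂ) * a i := by
            simp only [a, Finset.mul_sum]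
            rw [Finset.sum_comm]
            refine Finset.sum_congr rfl fun i _ => Finset.sum_congr rfl fun j _ => ?_
            rw [show i * (j - j₀) = -(i * j₀) + i * j by ring, AddChar.map_add_eq_mul]
            ring
        _ = a 0 := by
            rw [Finset.sum_eq_single (0 : ZMod q)]
            · simp
            · intro i _ hi; rw [ha i hi, mul_zero]
            · simp
    intro j
    have h1 := (hinv j).trans (hinv 0).symm
    rw [D.el_zero] at h1
    exact (starRingEnd ℂ).injective (mul_left_cancel₀ (Nat.cast_ne_zero.2 (NeZero.ne q)) h1)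
  have h0 : ∑ ν : IrrCharacter E, ∑ g : F, (η : F → ℂ) g * conj ((D.lin ν : F → ℂ) g) = 0 := by
    refine Finset.sum_eq_zero fun ν _ => ?_
    rw [Char.sum_mul_conj_eq_card_mul_classInner,
      Char.classInner_irr_ne η.2 (D.lin ν).2 (fun h => hlin ν (Subtype.ext h.symm)), mul_zero]
  rw [Finset.sum_comm] at h0
  have e : ∀ g : F, ∑ ν : IrrCharacter E, (η : F → ℂ) g * conj ((D.lin ν : F → ℂ) g) =
      (if g ∈ D.Q then (η : F → ℂ) 1 * (Nat.card E : ℂ) else 0) := by
    intro g
    rw [← Finset.mul_sum]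
    have h1 : ∑ ν : IrrCharacter E, conj ((D.lin ν : F → ℂ) g) =
        if IsConj (D.multE g) 1 then (Nat.card E : ℂ) else 0 := by
      have h2 := congrArg conj (Char.sum_irr_mul_conj (D.multE g) (1 : E))
      rw [show Subgroup.centralizer ({D.multE g} : Set E) = ⊤ from eq_top_iff.2 fun x _ => by
        rw [Subgroup.mem_centralizer_singleton_iff]; exact mul_comm _ _, Subgroup.card_top] at h2
      simp only [map_sum, map_mul, Complex.conj_conj, apply_ite (starRingEnd ℂ), map_natCast,
        map_zero, CharInd.irr_one_of_comm (fun a b : E => mul_comm a b) (Subtype.prop _),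
        mul_one] at h2
      exact h2
    have hiff : IsConj (D.multE g) 1 ↔ g ∈ D.Q := by
      rw [isConj_one_left]
      constructor
      · exact fun h => MonoidHom.mem_ker.2 (congrArg Subtype.val h)
      · exact fun h => Subtype.ext (MonoidHom.mem_ker.1 h)
    rw [h1]
    by_cases hg : g ∈ D.Q
    · obtain ⟨j, rfl⟩ := D.mem_Q.1 hg
      rw [if_pos hg, if_pos (hiff.2 hg), hconst]
    · rw [if_neg hg, if_neg (fun h => hg (hiff.1 h)), mul_zero]
  rw [Finset.sum_congr rfl fun g _ => e g, ← Finset.sum_filter, Finset.sum_const, nsmul_eq_mul]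
    at h0
  refine absurd h0 (mul_ne_zero (Nat.cast_ne_zero.2 ?_) (mul_ne_zero (Char.irr_one_ne_zero η.2)
    (Nat.cast_ne_zero.2 Nat.card_pos.ne')))
  exact Finset.card_ne_zero.2 ⟨1, Finset.mem_filter.2 ⟨Finset.mem_univ _, D.Q.one_mem⟩⟩

theorem sum_ind_el {i : ZMod q} (hi : i ≠ 0) : ∑ j, D.ind i (D.el j) = 0 := by
  simp only [D.ind_el, orbSum]
  rw [Finset.sum_comm]
  refine Finset.sum_eq_zero fun r _ => ?_
  rw [Finset.sum_congr rfl fun j _ => by rw [mul_comm _ j]]
  rw [sum_stdAddChar_mul, if_neg]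
  intro h
  exact hi ((Units.mul_right_eq_zero _).1 h)

theorem not_isTriv_ind {i : ZMod q} (hi : i ≠ 0) : ¬ D.IsTriv ⟨_, D.isIrr_ind hi⟩ := by
  intro h
  have h1 := D.sum_ind_el hi
  rw [Finset.sum_congr rfl fun j _ => (show D.ind i (D.el j) = D.ind i 1 from h j),
    Finset.sum_const, Finset.card_univ, ZMod.card, nsmul_eq_mul] at h1
  exact mul_ne_zero (Nat.cast_ne_zero.2 (NeZero.ne q)) (Char.irr_one_ne_zero (D.isIrr_ind hi)) h1

theorem isTriv_iff (η : IrrCharacter F) : D.IsTriv η ↔ ∃ ν, D.lin ν = η := by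
  refine ⟨fun h => (D.cases η).resolve_right ?_, ?_⟩
  · rintro ⟨i, hi, he⟩
    refine D.not_isTriv_ind hi ?_
    have : η = ⟨_, D.isIrr_ind hi⟩ := Subtype.ext he
    rwa [this] at h
  · rintro ⟨ν, rfl⟩ j
    rw [D.lin_el, D.lin_one]

theorem isTriv_apply {η : IrrCharacter F} (h : D.IsTriv η) (j : ZMod q) :
    (η : F → ℂ) (D.el j) = 1 := by
  obtain ⟨ν, rfl⟩ := (D.isTriv_iff η).1 h
  exact D.lin_el ν j

theorem exists_ind {η : IrrCharacter F} (h : ¬ D.IsTriv η) :
    ∃ i, i ≠ 0 ∧ (η : F → ℂ) = D.ind i :=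
  (D.cases η).resolve_left fun h' => h ((D.isTriv_iff η).2 h')

theorem card_triv : Nat.card {η : IrrCharacter F // D.IsTriv η} = Nat.card E := by
  have h1 : Nat.card {η : IrrCharacter F // D.IsTriv η} = Nat.card (IrrCharacter E) :=
    (Nat.card_congr (Equiv.ofBijective
      (fun ν => (⟨D.lin ν, (D.isTriv_iff _).2 ⟨ν, rfl⟩⟩ : {η : IrrCharacter F // D.IsTriv η}))
      ⟨fun _ _ h => D.lin_injective (congrArg Subtype.val h), fun η => by
        obtain ⟨ν, hν⟩ := (D.isTriv_iff _).1 η.2
        exact ⟨ν, Subtype.ext hν⟩⟩)).symm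
  rw [h1]
  have h2 := Char.sum_irr_degree_sq (G := E)
  simp only [CharInd.irr_one_of_comm (fun a b : E => mul_comm a b) (Subtype.prop _), one_pow,
    Finset.sum_const, Finset.card_univ, nsmul_eq_mul, mul_one] at h2
  rw [Nat.card_eq_fintype_card]
  exact_mod_cast h2

theorem ind_eq_iff {i i' : ZMod q} (hi : i ≠ 0) (hi' : i' ≠ 0) :
    D.ind i = D.ind i' ↔ ∃ r ∈ E, (r : ZMod q) * i' = i := by
  constructor
  · intro h
    by_contra hn
    have h1 := D.classInner_ind_ind hi i'
    rw [if_neg hn, ← h, Char.classInner_irr_self (D.isIrr_ind hi)] at h1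
    exact one_ne_zero h1
  · intro h
    by_contra hne
    have h1 := D.classInner_ind_ind hi i'
    rw [if_pos h, Char.classInner_irr_ne (D.isIrr_ind hi) (D.isIrr_ind hi') hne] at h1
    exact zero_ne_one h1

theorem el_ne_one {j : ZMod q} (hj : j ≠ 0) : D.el j ≠ 1 := fun h =>
  hj (D.el_injective (h.trans D.el_zero.symm))

theorem centralizer_el {j : ZMod q} (hj : j ≠ 0) :
    Subgroup.centralizer ({D.el j} : Set F) = D.Q := by
  ext g
  rw [Subgroup.mem_centralizer_singleton_iff]
  constructor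
  · intro h
    refine MonoidHom.mem_ker.2 (D.free _ (D.mult_mem g) j hj (D.el_injective ?_))
    rw [← D.conj_el, h, mul_inv_cancel_right]
  · intro h
    obtain ⟨i, rfl⟩ := D.mem_Q.1 h
    rw [← D.el_add, ← D.el_add, add_comm]

theorem card_centralizer_el {j : ZMod q} (hj : j ≠ 0) :
    Nat.card (Subgroup.centralizer ({D.el j} : Set F)) = q := by
  rw [D.centralizer_el hj, D.card_Q]

theorem el_pow (j : ZMod q) (n : ℕ) : D.el j ^ n = D.el (n • j) := by
  induction n with
  | zero => rw [pow_zero, zero_smul, D.el_zero]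
  | succ n ih => rw [pow_succ, ih, ← D.el_add, succ_nsmul]

theorem el_pow_card (j : ZMod q) : D.el j ^ q = 1 := by
  rw [D.el_pow, nsmul_eq_mul, ZMod.natCast_self, zero_mul, D.el_zero]

theorem isConj_el_iff (i : ZMod q) (g : F) :
    IsConj (D.el i) g ↔ ∃ r ∈ E, D.el ((r : ZMod q) * i) = g := by
  rw [isConj_iff]
  constructor
  · rintro ⟨c, hc⟩
    exact ⟨D.mult c, D.mult_mem c, by rw [← D.conj_el, hc]⟩
  · rintro ⟨r, hr, rfl⟩
    obtain ⟨c, hc⟩ := D.exists_mult_eq ⟨r, hr⟩
    exact ⟨c, by rw [D.conj_el, hc]⟩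

/-- The singular elements are the non-trivial elements of the cyclic subgroup. -/
theorem singular_iff {p b : ℕ} [hp : Fact p.Prime] (hq : q = p ^ b) {g : F} :
    p ∣ orderOf g ↔ ∃ j, j ≠ 0 ∧ D.el j = g := by
  constructor
  · intro hg
    have hm : 0 < orderOf g / p := Nat.div_pos (Nat.le_of_dvd (orderOf_pos g) hg) hp.out.pos
    set w := g ^ (orderOf g / p) with hw
    have hwo : orderOf w = p := by
      rw [hw, orderOf_pow_of_dvd hm.ne' (Nat.div_dvd_of_dvd hg), Nat.div_div_self hg
        (orderOf_pos g).ne']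
    -- the element of order `p` has trivial multiplier
    have hwQ : w ∈ D.Q := by
      refine MonoidHom.mem_ker.2 ?_
      have hE : Nat.card E < q ∨ q = 1 := by
        rcases Nat.eq_or_lt_of_le (Nat.one_le_iff_ne_zero.2 (NeZero.ne q)) with h | h
        · exact Or.inr h.symm
        · left
          haveI : Fact (1 < q) := ⟨h⟩
          have hinj : Function.Injective (fun r : E =>
              (⟨((r : (ZMod q)ˣ) : ZMod q), Units.ne_zero _⟩ : {l : ZMod q // l ≠ 0})) :=
            fun r r' he => Subtype.ext (Units.ext (congrArg (fun z : {l : ZMod q // l ≠ 0} => (z : ZMod q)) he))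
          have h1 := Fintype.card_le_of_injective _ hinj
          rw [Fintype.card_subtype_compl, Fintype.card_subtype_eq, ZMod.card] at h1
          rw [Nat.card_eq_fintype_card]
          omega
      by_contra hne
      have hord : orderOf (D.mult w) = p :=
        ((Nat.dvd_prime hp.out).1 (hwo ▸ orderOf_map_dvd D.mult w)).resolve_left
          (fun h => hne (orderOf_eq_one_iff.1 h))
      have hpE : p ∣ Nat.card E := by
        rw [← hord]
        exact Subgroup.orderOf_dvd_natCard _ (D.mult_mem w)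
      -- multipliers of order `p` fix a non-zero residue
      rcases hE with hlt | h1
      · set r := D.mult w
        have hr : r ∈ E := D.mult_mem w
        haveI : Fact (IsPGroup p (Subgroup.zpowers r)) :=
          ⟨IsPGroup.of_card (n := 1) (by rw [Nat.card_zpowers, hord, pow_one])⟩
        let act : MulAction (Subgroup.zpowers r) (ZMod q) :=
          MulAction.compHom (ZMod q) (Subgroup.zpowers r).subtype
        have hq1 : 1 < q := by
          have := Nat.card_pos (α := E); omega
        have hpq : p ∣ Nat.card (ZMod q) := by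
          rw [Nat.card_zmod, hq]
          refine dvd_pow_self p ?_
          rintro rfl
          rw [pow_zero] at hq; omega
        obtain ⟨l, hl, hl0⟩ := (Fact.out : IsPGroup p (Subgroup.zpowers r))
          |>.exists_fixed_point_of_prime_dvd_card_of_fixed_point (ZMod q) hpq
          (a := (0 : ZMod q)) (fun z => by
            show (((z : (ZMod q)ˣ) : ZMod q)) * 0 = 0
            rw [mul_zero])
        refine hne (D.free r hr l hl0.symm ?_)
        exact hl ⟨r, Subgroup.mem_zpowers r⟩
      · subst h1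
        exact hne (Subsingleton.elim _ _)
    obtain ⟨j, hj⟩ := D.mem_Q.1 hwQ
    have hj0 : j ≠ 0 := by
      rintro rfl
      rw [D.el_zero] at hj
      exact hp.out.ne_one (by rw [← hwo, ← hj, orderOf_one])
    have hgC : g ∈ Subgroup.centralizer ({D.el j} : Set F) := by
      rw [Subgroup.mem_centralizer_singleton_iff, hj, hw]
      exact (Commute.self_pow g _).eq
    rw [D.centralizer_el hj0] at hgC
    obtain ⟨i, rfl⟩ := D.mem_Q.1 hgC
    exact ⟨i, fun h => hp.out.not_dvd_one (by rwa [h, D.el_zero, orderOf_one] at hg), rfl⟩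
  · rintro ⟨j, hj, rfl⟩
    have h1 : orderOf (D.el j) ∣ p ^ b := hq ▸ orderOf_dvd_of_pow_eq_one (D.el_pow_card j)
    obtain ⟨k, -, hk⟩ := (Nat.dvd_prime_pow hp.out).1 h1
    rw [hk]
    refine dvd_pow_self p ?_
    rintro rfl
    rw [pow_zero, orderOf_eq_one_iff] at hk
    exact D.el_ne_one hj hk

end FrobData

theorem normal_of_card_index {p b : ℕ} [hp : Fact p.Prime] {F : Type u} [Group F] [Finite F]
    {Q : Subgroup F} (hQ : Nat.card Q = p ^ b) (hidx : Q.index < p) : Q.Normal := by
  refine ⟨fun n hn g => ?_⟩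
  set φ := MulAction.toPermHom F (F ⧸ Q)
  have hcop : Nat.Coprime (p ^ b) (Nat.card (Equiv.Perm (F ⧸ Q))) := by
    refine Nat.Coprime.pow_left _ (hp.out.coprime_iff_not_dvd.2 ?_)
    haveI := Fintype.ofFinite (F ⧸ Q)
    rw [Nat.card_perm, hp.out.dvd_factorial, not_le]
    exact hidx
  have h1 : orderOf (φ n) ∣ Nat.gcd (p ^ b) (Nat.card (Equiv.Perm (F ⧸ Q))) := by
    refine Nat.dvd_gcd ((orderOf_map_dvd φ n).trans ?_) (orderOf_dvd_natCard _)
    rw [← hQ]
    have := orderOf_dvd_natCard (⟨n, hn⟩ : Q)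
    rwa [← Subgroup.orderOf_coe] at this
  rw [hcop.gcd_eq_one, Nat.dvd_one, orderOf_eq_one_iff] at h1
  have h2 : n • (QuotientGroup.mk (g⁻¹) : F ⧸ Q) = QuotientGroup.mk (g⁻¹) := by
    have := congrArg (fun σ : Equiv.Perm (F ⧸ Q) => σ (QuotientGroup.mk (g⁻¹))) h1
    simpa [φ] using this
  rw [MulAction.Quotient.smul_mk, QuotientGroup.eq, smul_eq_mul] at h2
  have h3 := Q.inv_mem h2
  simpa [mul_assoc] using h3

/-- The data from a self-centralizing cyclic subgroup. -/
theorem exists_frobData {p b : ℕ} [hp : Fact p.Prime] [NeZero (p ^ b)]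
    (E : Subgroup (ZMod (p ^ b))ˣ) (hE : Nat.card E ∣ p - 1)
    (hfree : ∀ r ∈ E, ∀ l : ZMod (p ^ b), l ≠ 0 → (r : ZMod (p ^ b)) * l = l → r = 1)
    {F : Type u} [Group F] [Fintype F] (hF : Nat.card F = p ^ b * Nat.card E) (Q : Subgroup F)
    (hQcyc : IsCyclic Q) (hQcard : Nat.card Q = p ^ b)
    (hQC : Subgroup.centralizer (Q : Set F) = Q) :
    ∃ D : FrobData (p ^ b) E F, D.Q = Q := by
  obtain ⟨y, hy⟩ := (Subgroup.isCyclic_iff_exists_zpowers_eq_top Q).1 hQcyc
  have hord : orderOf y = p ^ b := by rw [← Nat.card_zpowers, hy, hQcard]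
  have hidx : Q.index = Nat.card E := by
    have h := Q.card_mul_index
    rw [hQcard, hF] at h
    exact Nat.eq_of_mul_eq_mul_left (pow_pos hp.out.pos b) h
  have hlt : Nat.card E < p := by
    have := Nat.le_of_dvd (Nat.sub_pos_of_lt hp.out.one_lt) hE
    have := hp.out.pos
    omega
  haveI hN : Q.Normal := normal_of_card_index hQcard (hidx ▸ hlt)
  set el : ZMod (p ^ b) → F := fun j => y ^ j.val with hel
  have el_intCast : ∀ i : ℤ, el (i : ZMod (p ^ b)) = y ^ i := fun i => by
    show y ^ _ = _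
    rw [← zpow_natCast, zpow_eq_zpow_iff_modEq, hord, ← ZMod.intCast_eq_intCast_iff]
    simp
  have el_add : ∀ i j, el (i + j) = el i * el j := fun i j => by
    have e : i + j = (((i.val : ℤ) + (j.val : ℤ) : ℤ) : ZMod (p ^ b)) := by simp
    rw [e, el_intCast, zpow_add, zpow_natCast, zpow_natCast]
  have el_inj : Function.Injective el := fun i j h => by
    simp only [hel, pow_eq_pow_iff_modEq, hord, ← ZMod.natCast_eq_natCast_iff] at h
    simpa using h
  have el_mem : ∀ j, el j ∈ Q := fun j => hy ▸ Subgroup.npow_mem_zpowers _ _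
  have el_one : el 1 = y := by
    rw [← Int.cast_one (R := ZMod (p ^ b)), el_intCast, zpow_one]
  have el_surj : ∀ g ∈ Q, ∃ j, el j = g := fun g hg => by
    rw [← hy] at hg
    obtain ⟨i, rfl⟩ := Subgroup.mem_zpowers_iff.1 hg
    exact ⟨i, el_intCast i⟩
  have el_pow : ∀ (j : ZMod (p ^ b)) (k : ℕ), el j ^ k = el ((k : ZMod (p ^ b)) * j) := by
    intro j k
    induction k with
    | zero => simp [hel]
    | succ k ih => rw [pow_succ, ih, ← el_add, Nat.cast_succ, add_mul, one_mul]
  have key : ∀ g : F, ∃ r : ZMod (p ^ b), ∀ j, g * el j * g⁻¹ = el (r * j) := by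
    intro g
    obtain ⟨r, hr⟩ := el_surj _ (hN.conj_mem _ (el_mem 1) g)
    refine ⟨r, fun j => ?_⟩
    rw [el_one] at hr
    rw [show g * el j * g⁻¹ = (g * y * g⁻¹) ^ j.val by rw [conj_pow], ← hr, el_pow,
      ZMod.natCast_zmod_val, mul_comm]
  choose r hr using key
  have r_one : r 1 = 1 := el_inj (by simpa using (hr 1 1).symm)
  have r_mul : ∀ g h, r (g * h) = r g * r h := fun g h => el_inj (by
    rw [← mul_one (r (g * h)), ← hr, mul_inv_rev]
    calc g * h * el 1 * (h⁻¹ * g⁻¹) = g * (h * el 1 * h⁻¹) * g⁻¹ := by group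
      _ = el (r g * r h) := by rw [hr, hr, mul_one])
  let μ : F →* (ZMod (p ^ b))ˣ :=
    MonoidHom.toHomUnits { toFun := r, map_one' := r_one, map_mul' := r_mul }
  have hμ : ∀ g j, g * el j * g⁻¹ = el ((μ g : ZMod (p ^ b)) * j) := fun g j => hr g j
  have hker : ∀ g, μ g = 1 ↔ g ∈ Set.range el := by
    intro g
    constructor
    · intro h
      have hgC : g ∈ Subgroup.centralizer (Q : Set F) := by
        refine Subgroup.mem_centralizer_iff.2 fun x hx => ?_
        obtain ⟨j, rfl⟩ := el_surj x hx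
        have h1 := hμ g j
        rw [h, Units.val_one, one_mul] at h1
        calc el j * g = g * el j * g⁻¹ * g := by rw [h1]
          _ = g * el j := by group
      rw [hQC] at hgC
      exact el_surj g hgC
    · rintro ⟨i, rfl⟩
      refine Units.ext (el_inj ?_)
      rw [← mul_one (μ (el i) : ZMod (p ^ b)), ← hμ, ← el_add, Units.val_one, add_comm, el_add,
        mul_inv_cancel_right]
  have hkerQ : μ.ker = Q := by
    ext g
    rw [MonoidHom.mem_ker, hker]
    exact ⟨fun ⟨j, hj⟩ => hj ▸ el_mem j, el_surj g⟩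
  have hrange : μ.range = E := by
    have hc : Nat.card μ.range = Nat.card E := by rw [← Subgroup.index_ker, hkerQ, hidx]
    rcases eq_or_ne p 2 with h2 | h2
    · have h1 : Nat.card E = 1 := Nat.dvd_one.1 (hE.trans (dvd_of_eq (by omega)))
      rw [Subgroup.card_eq_one.1 h1]
      rw [h1] at hc
      exact Subgroup.card_eq_one.1 hc
    · haveI := ZMod.isCyclic_units_of_prime_pow p hp.out h2 b
      exact OddLocal.eq_of_le_cyclic_of_card_eq (W := (⊤ : Subgroup (ZMod (p ^ b))ˣ)) le_top
        le_top hc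
  exact ⟨⟨el, μ, el_add, el_inj, hμ, hrange, hker, hfree⟩, hkerQ⟩

end Cfsg.Agent.CycIso
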