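import Cfsg.Agent.BlockCount.CyclicColumns

/-!
The orbits of a group of multipliers on the non-zero residues and the coefficient matrix of a
system of invariant columns of sums of roots of unity.
-/

set_option autoImplicit false
set_option linter.style.haveILetI false
set_option linter.unusedSectionVars false

namespace Cfsg.Agent.CycIso

open Cfsg.Agent.BlkChar.Cyclo
open Cfsg.Agent.BlockCount.CyclicColumns
open scoped ComplexConjugate Classical

universe u

variable {n : ℕ} [NeZero n]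

/-- The orbits on the non-zero residues. -/
abbrev Orb (E : Subgroup (ZMod n)ˣ) : Type := Quotient (orbitSetoid E)

noncomputable instance (E : Subgroup (ZMod n)ˣ) : Fintype (Orb E) := Fintype.ofFinite _

/-- The orbit of a residue. -/
def Orb.mk (E : Subgroup (ZMod n)ˣ) {i : ZMod n} (hi : i ≠ 0) : Orb E :=
  Quotient.mk (orbitSetoid E) ⟨i, hi⟩

/-- A representative. -/
noncomputable def Orb.rep {E : Subgroup (ZMod n)ˣ} (o : Orb E) : ZMod n :=
  (Quotient.out (s := orbitSetoid E) o).1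

theorem Orb.rep_ne_zero {E : Subgroup (ZMod n)ˣ} (o : Orb E) : o.rep ≠ 0 :=
  (Quotient.out (s := orbitSetoid E) o).2

theorem Orb.mk_rep {E : Subgroup (ZMod n)ˣ} (o : Orb E) : Orb.mk E o.rep_ne_zero = o :=
  Quotient.out_eq (s := orbitSetoid E) o

theorem Orb.mk_eq_iff {E : Subgroup (ZMod n)ˣ} {i l : ZMod n} (hi : i ≠ 0) (hl : l ≠ 0) :
    Orb.mk E hi = Orb.mk E hl ↔ ∃ ε ∈ E, (ε : ZMod n) * i = l :=
  ⟨fun h => Quotient.exact (s := orbitSetoid E) h,
    fun h => Quotient.sound (s := orbitSetoid E) h⟩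

theorem Orb.exists_rep_mul {E : Subgroup (ZMod n)ˣ} {i : ZMod n} (hi : i ≠ 0) :
    ∃ ε ∈ E, (ε : ZMod n) * (Orb.mk E hi).rep = i :=
  (Orb.mk_eq_iff (Orb.rep_ne_zero _) hi).1 (Orb.mk_rep _)

theorem Orb.eq_of_rel {E : Subgroup (ZMod n)ˣ} {q q' : Orb E}
    (h : ∃ ε ∈ E, (ε : ZMod n) * q'.rep = q.rep) : q = q' :=
  ((Orb.mk_rep q').symm.trans (((Orb.mk_eq_iff q'.rep_ne_zero q.rep_ne_zero).2 h).trans
    (Orb.mk_rep q))).symm

theorem card_orb (E : Subgroup (ZMod n)ˣ) (hn : 1 < n)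
    (hfree : ∀ ε ∈ E, ∀ l : ZMod n, l ≠ 0 → (ε : ZMod n) * l = l → ε = 1) :
    Nat.card E * Fintype.card (Orb E) + 1 = n := by
  haveI : Fact (1 < n) := ⟨hn⟩
  have hmul0 : ∀ (ε : (ZMod n)ˣ) {j : ZMod n}, j ≠ 0 → (ε : ZMod n) * j ≠ 0 := fun ε j hj h =>
    hj ((Units.mul_right_eq_zero ε).1 h)
  have hbij : Function.Bijective (fun εq : E × Orb E =>
      (⟨((εq.1 : (ZMod n)ˣ) : ZMod n) * εq.2.rep, hmul0 εq.1 εq.2.rep_ne_zero⟩ :
        {j : ZMod n // j ≠ 0})) := by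
    constructor
    · rintro ⟨ε, q⟩ ⟨δ, q'⟩ h
      have h' : ((ε : (ZMod n)ˣ) : ZMod n) * q.rep = ((δ : (ZMod n)ˣ) : ZMod n) * q'.rep :=
        congrArg Subtype.val h
      have hqq : q = q' := Orb.eq_of_rel ⟨(ε : (ZMod n)ˣ)⁻¹ * δ,
        E.mul_mem (E.inv_mem ε.2) δ.2, by
        rw [Units.val_mul, mul_assoc, ← h', ← mul_assoc, Units.inv_mul, one_mul]⟩
      subst hqq
      refine Prod.ext (Subtype.ext ?_) rfl
      have h1 := hfree ((δ : (ZMod n)ˣ)⁻¹ * ε) (E.mul_mem (E.inv_mem δ.2) ε.2) q.rep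
        q.rep_ne_zero (by
          rw [Units.val_mul, mul_assoc, h', ← mul_assoc, Units.inv_mul, one_mul])
      exact (inv_mul_eq_one.1 h1).symm
    · intro i
      obtain ⟨ε, hε, h⟩ := Orb.exists_rep_mul (E := E) i.2
      exact ⟨(⟨ε, hε⟩, Orb.mk E i.2), Subtype.ext h⟩
  have h1 := Nat.card_congr (Equiv.ofBijective _ hbij)
  rw [Nat.card_prod, Nat.card_eq_fintype_card (α := Orb E),
    Nat.card_eq_fintype_card (α := {j : ZMod n // j ≠ 0}), Fintype.card_subtype_compl,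
    Fintype.card_subtype_eq, ZMod.card] at h1
  omega

variable {X : Type u} [Fintype X] (E : Subgroup (ZMod n)ˣ)

theorem coeff_const (a : X → ZMod n → ℤ) (ha : ∀ x, a x 0 = 0)
    (hinv : ∀ x, ∀ ε ∈ E, ∀ j : ZMod n, j ≠ 0 → cev (a x) ((ε : ZMod n) * j) = cev (a x) j)
    (x : X) {ε : (ZMod n)ˣ} (hε : ε ∈ E) (i : ZMod n) : a x ((ε : ZMod n) * i) = a x i := by
  have hn0 : (n : ℂ) ≠ 0 := Nat.cast_ne_zero.2 (NeZero.ne n)
  have hmul0 : ∀ (ε : (ZMod n)ˣ) {j : ZMod n}, j ≠ 0 → (ε : ZMod n) * j ≠ 0 := fun ε j hj h =>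
    hj ((Units.mul_right_eq_zero ε).1 h)
  apply Int.cast_injective (α := ℂ)
  refine mul_left_cancel₀ hn0 ?_
  rw [mul_coeff_eq (ha x), mul_coeff_eq (ha x)]
  refine Finset.sum_nbij' (fun j => (ε : ZMod n) * j) (fun j => (↑ε⁻¹ : ZMod n) * j)
    (fun j hj => Finset.mem_erase.2 ⟨hmul0 ε (Finset.mem_erase.1 hj).1, Finset.mem_univ _⟩)
    (fun j hj => Finset.mem_erase.2 ⟨hmul0 ε⁻¹ (Finset.mem_erase.1 hj).1, Finset.mem_univ _⟩)
    (fun j _ => by simp [← mul_assoc]) (fun j _ => by simp [← mul_assoc]) fun j hj => ?_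
  rw [hinv x ε hε j (Finset.mem_erase.1 hj).1, show (ε : ZMod n) * i * j = i * (ε * j) by ring]

theorem gram_cyclic (hn : 1 < n)
    (hfree : ∀ ε ∈ E, ∀ l : ZMod n, l ≠ 0 → (ε : ZMod n) * l = l → ε = 1)
    (a : X → ZMod n → ℤ) (ha : ∀ x, a x 0 = 0)
    (hinv : ∀ x, ∀ ε ∈ E, ∀ j : ZMod n, j ≠ 0 → cev (a x) ((ε : ZMod n) * j) = cev (a x) j)
    (hnorm : ∀ j : ZMod n, j ≠ 0 → ∑ x, cev (a x) j * conj (cev (a x) j) = (n : ℂ))
    (horth : ∀ j j' : ZMod n, j ≠ 0 → j' ≠ 0 → (¬ ∃ ε ∈ E, (ε : ZMod n) * j = j') →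
      ∑ x, cev (a x) j * conj (cev (a x) j') = 0) {i l : ZMod n} (hi : i ≠ 0) (hl : l ≠ 0) :
    ∑ x, a x i * a x l =
      (if ∃ ε ∈ E, (ε : ZMod n) * l = i then 1 else 0) + (Nat.card E : ℤ) := by
  haveI : Fact (1 < n) := ⟨hn⟩
  have hn0 : (n : ℂ) ≠ 0 := Nat.cast_ne_zero.2 (NeZero.ne n)
  -- the products of the columns
  have hmul0 : ∀ (ε : (ZMod n)ˣ) {j : ZMod n}, j ≠ 0 → (ε : ZMod n) * j ≠ 0 := fun ε j hj h =>
    hj (by simpa [← mul_assoc] using congrArg ((↑ε⁻¹ : ZMod n) * ·) h)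
  have hprod : ∀ j j' : ZMod n, j ≠ 0 → j' ≠ 0 →
      ∑ x, cev (a x) j * conj (cev (a x) j') =
        ∑ ε : E, if ((ε : (ZMod n)ˣ) : ZMod n) * j = j' then (n : ℂ) else 0 := by
    intro j j' hj hj'
    by_cases h : ∃ ε ∈ E, (ε : ZMod n) * j = j'
    · obtain ⟨ε, hε, rfl⟩ := h
      rw [Finset.sum_eq_single (⟨ε, hε⟩ : E)]
      · rw [if_pos rfl, ← hnorm j hj]
        exact Finset.sum_congr rfl fun x _ => by rw [hinv x ε hε j hj]
      · intro δ _ hne
        refine if_neg fun hδ => hne (Subtype.ext ?_)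
        have h1 := hfree (ε⁻¹ * δ) (E.mul_mem (E.inv_mem hε) δ.2) j hj (by
          rw [Units.val_mul, mul_assoc, hδ, ← mul_assoc, Units.inv_mul, one_mul])
        exact (inv_mul_eq_one.1 h1).symm
      · simp
    · rw [horth j j' hj hj' h, eq_comm]
      exact Finset.sum_eq_zero fun ε _ => if_neg fun hε => h ⟨ε, ε.2, hε⟩
  apply Int.cast_injective (α := ℂ)
  push_cast
  refine mul_left_cancel₀ (mul_ne_zero hn0 hn0) ?_
  set g : ZMod n → ZMod n → ℂ := fun d t =>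
    ((ZMod.stdAddChar (-(i * d)) : ℂ) - 1) * ((ZMod.stdAddChar (l * t) : ℂ) - 1) with hg
  have e1 : ∀ x, (n : ℂ) * n * ((a x i : ℂ) * (a x l : ℂ)) =
      ∑ j ∈ Finset.univ.erase 0, ∑ j' ∈ Finset.univ.erase 0,
        g j j' * (cev (a x) j * conj (cev (a x) j')) := by
    intro x
    have h1 := mul_coeff_eq (ha x) i
    have h2 := congrArg conj (mul_coeff_eq (ha x) l)
    simp only [map_mul, map_natCast, map_intCast, map_sum, map_sub, map_one,
      conj_stdAddChar, neg_neg] at h2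
    rw [show (n : ℂ) * n * ((a x i : ℂ) * (a x l : ℂ)) =
      ((n : ℂ) * (a x i : ℂ)) * ((n : ℂ) * (a x l : ℂ)) by ring, h1, h2, Finset.sum_mul_sum]
    exact Finset.sum_congr rfl fun j _ => Finset.sum_congr rfl fun j' _ => by simp only [hg]; ring
  have e2 : ∀ ε : E, ∑ j ∈ Finset.univ.erase (0 : ZMod n), g j (((ε : (ZMod n)ˣ) : ZMod n) * j) =
      (n : ℂ) * ((if ((ε : (ZMod n)ˣ) : ZMod n) * l = i then 1 else 0) + 1) := by
    intro ε
    rw [Finset.sum_erase _ (by simp [hg])]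
    have e : ∀ d, g d (((ε : (ZMod n)ˣ) : ZMod n) * d) = (ZMod.stdAddChar (d * (((ε : (ZMod n)ˣ) : ZMod n) * l - i)) : ℂ) -
        ZMod.stdAddChar (d * (-i)) - ZMod.stdAddChar (d * (((ε : (ZMod n)ˣ) : ZMod n) * l)) + 1 := by
      intro d
      simp only [hg]
      rw [show d * (((ε : (ZMod n)ˣ) : ZMod n) * l - i) = -(i * d) + l * (((ε : (ZMod n)ˣ) : ZMod n) * d) by ring,
        AddChar.map_add_eq_mul, show d * (-i) = -(i * d) by ring,
        show d * (((ε : (ZMod n)ˣ) : ZMod n) * l) = l * (((ε : (ZMod n)ˣ) : ZMod n) * d) by ring]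
      ring
    simp only [e, Finset.sum_add_distrib, Finset.sum_sub_distrib, sum_stdAddChar,
      Finset.sum_const, Finset.card_univ, ZMod.card, nsmul_eq_mul, mul_one,
      neg_eq_zero, sub_eq_zero, if_neg hi, if_neg (hmul0 (ε : (ZMod n)ˣ) hl), sub_zero]
    split_ifs <;> ring
  calc (n : ℂ) * n * ∑ x, (a x i : ℂ) * (a x l : ℂ)
      = ∑ j ∈ Finset.univ.erase 0, ∑ j' ∈ Finset.univ.erase 0,
          g j j' * ∑ x, cev (a x) j * conj (cev (a x) j') := by
        rw [Finset.mul_sum, Finset.sum_congr rfl fun x _ => e1 x, Finset.sum_comm]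
        refine Finset.sum_congr rfl fun j _ => ?_
        rw [Finset.sum_comm]
        exact Finset.sum_congr rfl fun j' _ => (Finset.mul_sum _ _ _).symm
    _ = ∑ ε : E, ∑ j ∈ Finset.univ.erase (0 : ZMod n), g j (((ε : (ZMod n)ˣ) : ZMod n) * j) * n := by
        rw [Finset.sum_comm (s := (Finset.univ : Finset E))]
        refine Finset.sum_congr rfl fun j hj => ?_
        rw [Finset.sum_congr rfl fun j' hj' => by
          rw [hprod j j' (Finset.mem_erase.1 hj).1 (Finset.mem_erase.1 hj').1, Finset.mul_sum]]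
        rw [Finset.sum_comm]
        refine Finset.sum_congr rfl fun ε _ => ?_
        rw [Finset.sum_eq_single (((ε : (ZMod n)ˣ) : ZMod n) * j)]
        · rw [if_pos rfl]
        · intro b _ hb; rw [if_neg (Ne.symm hb), mul_zero]
        · intro hb
          exact absurd (Finset.mem_erase.2 ⟨hmul0 ε (Finset.mem_erase.1 hj).1,
            Finset.mem_univ _⟩) hb
    _ = ∑ ε : E, (n : ℂ) * n * ((if ((ε : (ZMod n)ˣ) : ZMod n) * l = i then 1 else 0) + 1) := by
        refine Finset.sum_congr rfl fun ε _ => ?_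
        rw [← Finset.sum_mul, e2]
        ring
    _ = _ := by
        rw [← Finset.mul_sum, Finset.sum_add_distrib, Finset.sum_const, Finset.card_univ,
          nsmul_eq_mul, mul_one, Nat.card_eq_fintype_card]
        congr 2
        split_ifs with h
        · obtain ⟨ε, hε, he⟩ := h
          rw [Finset.sum_eq_single (⟨ε, hε⟩ : E)]
          · simp [he]
          · intro δ _ hne
            refine if_neg fun hδ => hne (Subtype.ext ?_)
            have h1 := hfree (ε⁻¹ * δ) (E.mul_mem (E.inv_mem hε) δ.2) l hl (by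
              rw [Units.val_mul, mul_assoc, hδ, ← he, ← mul_assoc, Units.inv_mul, one_mul])
            exact (inv_mul_eq_one.1 h1).symm
          · simp
        · exact Finset.sum_eq_zero fun ε _ => if_neg fun hε => h ⟨ε, ε.2, hε⟩

end Cfsg.Agent.CycIso
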