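import Cfsg.Agent.Brauer.Projective
import Cfsg.Agent.Brauer.RegElement
import Cfsg.Agent.BrauerPairs.Subsections
import Cfsg.Agent.BlkChar.Major

/-!
The block part of a class function, cut to the regular elements and multiplied by the order of a
defect group, is divisible by the orders of the centralizers.
-/

set_option autoImplicit false
set_option linter.style.haveILetI false
set_option linter.unusedSectionVars false

namespace Cfsg.Agent.CycIso

open Cfsg
open Cfsg.Agent.Brauer (regSum)
open Cfsg.Agent.BlkChar.Contrib (regSum_pRegularPart_left regSum_sum_left regSum_smul_left)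
open scoped ComplexConjugate Classical

universe u

variable {p : ℕ} {M : Ideal AlgInt} {H : Type u} [Group H] [Fintype H]

/-- A local integer divided by the `p`-part of a number is so divided by the number. -/
theorem memLocalRing_div_of_pPart (hM : IsPModular p M) {n : ℕ} (hn : n ≠ 0) {z : ℂ}
    (h : MemLocalRing M (z / ((p ^ n.factorization p : ℕ) : ℂ))) :
    MemLocalRing M (z / (n : ℂ)) := by
  haveI : M.IsPrime := hM.2.1.isPrime
  have h1 : MemLocalRing M (((p ^ n.factorization p : ℕ) : ℂ) / (n : ℂ)) := by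
    rw [Block.memLocalRing_natCast_div_iff hM (pow_ne_zero _ hM.1.ne_zero) hn,
      hM.1.factorization_pow, Finsupp.single_eq_same]
  have h2 := (Block.localRing M).mul_mem h h1
  rw [Block.mem_localRing, div_mul_div_cancel₀ (Nat.cast_ne_zero.2 (pow_ne_zero _ hM.1.ne_zero))]
    at h2
  exact h2

/-- The scaled sums over regular elements of the members of a block are local integers. -/
theorem memLocalRing_defect_regSum (hM : IsPModular p M) {f : Set (IrrCharacter H)}
    {η : IrrCharacter H} (hη : η ∈ f) (ξ : IrrCharacter H) :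
    MemLocalRing M (((p ^ blockDefect p f : ℕ) : ℂ) / (Nat.card H : ℂ) *
      regSum p (η : H → ℂ) (ξ : H → ℂ)) := by
  haveI : Fact p.Prime := ⟨hM.1⟩
  haveI : M.IsPrime := hM.2.1.isPrime
  obtain ⟨hd, hd0⟩ := BlockVal.irr_one_eq_charDegree η
  have h1 : MemLocalRing M (((p ^ blockDefect p f * charDegree (η : H → ℂ) : ℕ) : ℂ) /
      (Nat.card H : ℂ)) := by
    rw [Block.memLocalRing_natCast_div_iff hM (mul_ne_zero (pow_ne_zero _ hM.1.ne_zero) hd0)
      Nat.card_pos.ne', Nat.factorization_mul (pow_ne_zero _ hM.1.ne_zero) hd0, Finsupp.add_apply,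
      hM.1.factorization_pow, Finsupp.single_eq_same]
    have := BlkChar.Contrib.degree_factorization (p := p) hη
    omega
  have h2 := (Block.localRing M).mul_mem h1
    (Brauer.regSum_div_memLocalRing hM (Char.isCharacter_of_irr ξ.2) η)
  rw [Block.mem_localRing] at h2
  convert h2 using 1
  rw [hd, Nat.cast_mul]
  have : (charDegree (η : H → ℂ) : ℂ) ≠ 0 := Nat.cast_ne_zero.2 hd0
  field_simp

/-- The divisibility of the block part. -/
theorem memLocalRing_blockPart_div (hM : IsPModular p M) (f : Set (IrrCharacter H))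
    {θ : H → ℂ} (hint : ∀ η : IrrCharacter H, MemLocalRing M (classInner θ (η : H → ℂ)))
    {s : H} (hs : ¬ p ∣ orderOf s) :
    MemLocalRing M (((p ^ blockDefect p f : ℕ) : ℂ) * blockPart f θ s /
      (Nat.card (Subgroup.centralizer ({s} : Set H)) : ℂ)) := by
  haveI : M.IsPrime := hM.2.1.isPrime
  haveI : Fact p.Prime := ⟨hM.1⟩
  set S := Finset.univ.filter (fun η : IrrCharacter H => η ∈ f) with hS
  have hbp : ∀ y, blockPart f θ y = ∑ η ∈ S, classInner θ (η : H → ℂ) * (η : H → ℂ) y := by
    intro y
    rw [BrauerPairs.blockPart_eq_sum]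
    exact Finset.sum_congr (by ext; simp [hS]) fun _ _ => rfl
  set Ψ : H → ℂ := fun y => ((p ^ blockDefect p f : ℕ) : ℂ) * pRegularPart p (blockPart f θ) y
    with hΨ
  have hcl : IsClassFunction H Ψ := by
    intro g h
    have e : IsPRegular p (h * g * h⁻¹) ↔ IsPRegular p g := by
      rw [IsPRegular, IsPRegular, ← MulAut.conj_apply, MulEquiv.orderOf_eq]
    have e2 : blockPart f θ (h * g * h⁻¹) = blockPart f θ g := by
      simp only [hbp, Char.irr_isClassFunction (Subtype.prop _) g h]
    simp only [hΨ, pRegularPart, e, e2]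
  have hvan : ∀ x, p ∣ orderOf x → Ψ x = 0 := fun x hx => by
    simp [hΨ, pRegularPart, IsPRegular, hx]
  have hinner : ∀ ξ : IrrCharacter H, MemLocalRing M (classInner Ψ (ξ : H → ℂ)) := by
    intro ξ
    have e : classInner Ψ (ξ : H → ℂ) = ∑ η ∈ S, classInner θ (η : H → ℂ) *
        (((p ^ blockDefect p f : ℕ) : ℂ) / (Nat.card H : ℂ) *
          regSum p (η : H → ℂ) (ξ : H → ℂ)) := by
      have e1 : ∑ g : H, Ψ g * conj ((ξ : H → ℂ) g) =
          ((p ^ blockDefect p f : ℕ) : ℂ) * regSum p (blockPart f θ) (ξ : H → ℂ) := by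
        rw [Brauer.regSum, Finset.sum_filter, Finset.mul_sum]
        refine Finset.sum_congr rfl fun g _ => ?_
        by_cases hg : p ∣ orderOf g
        · simp [hΨ, pRegularPart, IsPRegular, hg]
        · simp [hΨ, pRegularPart, IsPRegular, hg, mul_assoc]
      rw [classInner, e1, show blockPart f θ = ∑ η ∈ S, classInner θ (η : H → ℂ) • (η : H → ℂ)
        from funext fun y => by rw [hbp, Finset.sum_apply]; rfl, regSum_sum_left, Finset.mul_sum,
        Finset.mul_sum]
      refine Finset.sum_congr rfl fun η _ => ?_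
      rw [regSum_smul_left]
      ring
    rw [e]
    exact (Block.localRing M).sum_mem fun η hη => (Block.localRing M).mul_mem (hint η)
      (memLocalRing_defect_regSum hM (Finset.mem_filter.1 hη).2 ξ)
  have h := Brauer.memLocalRing_div_centralizer_of_vanish_singular hM Ψ hcl hinner hvan hs
  have hΨs : Ψ s = ((p ^ blockDefect p f : ℕ) : ℂ) * blockPart f θ s := by
    simp [hΨ, pRegularPart, IsPRegular, hs]
  rw [hΨs] at h
  exact memLocalRing_div_of_pPart hM Nat.card_pos.ne' h

end Cfsg.Agent.CycIso
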