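import Cfsg.Agent.CycIso.Structure
import Cfsg.Agent.CycIso.ProjDiv
import Cfsg.Prelude.Def_BlockLocal

/-!
The signed bijection between the characters of the semidirect product and those of the block is a
perfect isometry.
-/

set_option autoImplicit false
set_option linter.style.haveILetI false
set_option linter.unusedSectionVars false

namespace Cfsg.Agent.CycIso

open MonoidAlgebra Cfsg
open Cfsg.Agent.BrauerPairs Cfsg.Agent.BrauerPairs.Nil
open Cfsg.Agent.BlkChar.Cyclo
open Cfsg.Agent.BlkChar.Contrib (IsSection secCoeff apply_section)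
open Cfsg.Agent.BlockCount (CycData extFun extFun_coe)
open scoped ComplexConjugate Classical

universe u v

variable {p : ℕ} [hp : Fact p.Prime] {M : Ideal AlgInt} [M.IsPrime] [CharP (Block.ResF M) p]
  {H : Type u} [Group H] [Fintype H] {K : CycData p M H}

section Local

variable (K)

theorem memLocalRing_Φ (j : ZMod (p ^ K.b)) (y : H) : MemLocalRing M (K.Φ K.θ₀ j y) := by
  rw [CycData.Φ, phi_eq_sum]
  refine (Block.localRing M).sum_mem fun c _ => (Block.localRing M).mul_mem
    (memLocalRing_subgroupBlockCoeff _ _) ?_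
  unfold BlockCount.extFun
  split_ifs
  · exact Block.char_memLocalRing K.θ₀.2 _
  · exact (Block.localRing M).zero_mem

/-- The part of the fixed character, times the order of the defect group, is divisible by the order
of the centralizer. -/
theorem memLocalRing_Φ_div {j : ZMod (p ^ K.b)} (hj : j ≠ 0) {s : H}
    (hs : s ∈ Subgroup.centralizer (Subgroup.zpowers (K.el j) : Set H)) (hreg : ¬ p ∣ orderOf s) :
    MemLocalRing M (((p ^ K.b : ℕ) : ℂ) * K.Φ K.θ₀ j s /
      (Nat.card (Subgroup.centralizer ({K.el j * s} : Set H)) : ℂ)) := by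
  haveI : Fact (1 < p ^ K.b) := ⟨K.one_lt⟩
  have hsC : s ∈ K.C1 := K.centralizer_el_le hj hs
  set w : K.C1 := (K.pt j : K.C1) with hw
  set C : Subgroup K.C1 := Subgroup.centralizer (Subgroup.zpowers w : Set K.C1) with hC
  have hsC' : (⟨s, hsC⟩ : K.C1) ∈ C := K.mem_pair_centralizer hs hsC
  set t : C := ⟨⟨s, hsC⟩, hsC'⟩ with ht
  have hd : blockDefect p (K.loc.pair (K.pt j)).2.1 = K.b := by
    have h := K.loc.card_inf_centralizer (K.pt j)
    rw [inf_of_le_left (le_centralizer_of_abelian (fun a ha b hb =>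
      congrArg Subtype.val (K.comm_P ⟨a, ha⟩ ⟨b, hb⟩)) (K.loc.zpowers_le (K.pt j))), K.card_P] at h
    exact (Nat.pow_right_injective hp.out.two_le h).symm
  have hwpow : w ^ p ^ K.b = 1 := Subtype.ext (by
    rw [SubgroupClass.coe_pow, hw, K.coe_pt, K.el_pow_eq_one, Subgroup.coe_one])
  have hS : IsSection p K.b w C := isSection_of_zpowers rfl hwpow
  have hval : K.Φ K.θ₀ j s = blockPart (K.loc.pair (K.pt j)).2.1
      (fun c : C => (K.θ₀ : K.C1 → ℂ) (w * (c : K.C1))) t := by
    rw [show s = ((⟨s, hsC⟩ : K.C1) : H) from rfl, K.Φ_eq_phi K.θ₀ hj,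
      show (⟨s, hsC⟩ : K.C1) = ((t : C) : K.C1) from rfl]
    refine (phi_eq_blockPart (K.loc.pair (K.pt j)) (Subgroup.mem_zpowers w)
      (Char.irr_isClassFunction K.θ₀.2) t).trans ?_
    rfl
  have hint : ∀ η : IrrCharacter C, MemLocalRing M
      (classInner (fun c : C => (K.θ₀ : K.C1 → ℂ) (w * (c : K.C1))) (η : C → ℂ)) := by
    intro η
    have e : (fun c : C => (K.θ₀ : K.C1 → ℂ) (w * (c : K.C1))) =
        ∑ ξ : IrrCharacter C, secCoeff hS K.θ₀ 1 ξ • (ξ : C → ℂ) := by
      funext c
      have h := apply_section hS K.θ₀ 1 c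
      rw [ZMod.val_one, pow_one] at h
      rw [h, Finset.sum_apply]
      rfl
    rw [e, Char.classInner_sum_smul_irr, secCoeff]
    refine (Block.localRing M).mul_mem (natCast_mem (Block.localRing M) _)
      (Block.memLocalRing_of_pow_eq_one (pow_ne_zero K.b hp.out.ne_zero) ?_)
    rw [← AddChar.map_nsmul_eq_pow, nsmul_eq_mul, ZMod.natCast_self, zero_mul,
      AddChar.map_zero_eq_one]
  have hregt : ¬ p ∣ orderOf t := by
    rwa [← Subgroup.orderOf_coe, ← Subgroup.orderOf_coe]
  have h := memLocalRing_blockPart_div K.isPModular (K.loc.pair (K.pt j)).2.1 hint hregt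
  have hcomm : Commute (K.el j) s :=
    Subgroup.mem_centralizer_iff.1 hs _ (Subgroup.mem_zpowers _)
  have hcop : (orderOf (K.el j)).Coprime (orderOf s) := by
    obtain ⟨i, hi⟩ := K.exists_orderOf j
    rw [hi]
    exact (hp.out.coprime_iff_not_dvd.2 hreg).pow_left i
  have hcard : Nat.card (Subgroup.centralizer ({K.el j * s} : Set H)) =
      Nat.card (Subgroup.centralizer ({t} : Set C)) := by
    rw [Element.centralizer_mul_of_coprime hcomm hcop]
    have hmap : ((Subgroup.centralizer ({t} : Set C)).map C.subtype).map K.C1.subtype =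
        Subgroup.centralizer ({K.el j} : Set H) ⊓ Subgroup.centralizer ({s} : Set H) := by
      ext g
      constructor
      · rintro ⟨g1, ⟨c, hc, rfl⟩, rfl⟩
        refine ⟨?_, ?_⟩
        · refine Subgroup.mem_centralizer_singleton_iff.2 ?_
          have := Subgroup.mem_centralizer_iff.1 c.2 w (Subgroup.mem_zpowers _)
          have h2 := congrArg Subtype.val this
          exact h2.symm
        · refine Subgroup.mem_centralizer_singleton_iff.2 ?_
          have h1 := Subgroup.mem_centralizer_singleton_iff.1 hc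
          exact congrArg (fun z : C => ((z : K.C1) : H)) h1
      · rintro ⟨h1, h2⟩
        have hg : g ∈ Subgroup.centralizer (Subgroup.zpowers (K.el j) : Set H) := by
          rwa [Brauer.centralizer_zpowers_eq]
        have hg1 := K.centralizer_el_le hj hg
        refine ⟨⟨g, hg1⟩, ⟨⟨⟨g, hg1⟩, K.mem_pair_centralizer hg hg1⟩, ?_, rfl⟩, rfl⟩
        refine Subgroup.mem_centralizer_singleton_iff.2 (Subtype.ext (Subtype.ext ?_))
        exact Subgroup.mem_centralizer_singleton_iff.1 h2
    rw [← hmap, Subgroup.card_map_of_injective K.C1.subtype_injective,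
      Subgroup.card_map_of_injective C.subtype_injective]
  rw [hcard, hval]
  rw [hd] at h
  exact h

end Local

variable {F : Type v} [Group F] [Fintype F] {D : FrobData (p ^ K.b) K.E F}

theorem FrobData.el_neg {q : ℕ} [NeZero q] {E : Subgroup (ZMod q)ˣ} {F : Type v} [Group F]
    [Fintype F] (D : FrobData q E F) (j : ZMod q) : D.el (-j) = (D.el j)⁻¹ := by
  refine eq_inv_of_mul_eq_one_left ?_
  rw [← D.el_add, neg_add_cancel, D.el_zero]

theorem sum_irr_apply_mul (y : F) (j : ZMod (p ^ K.b)) :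
    ∑ η : IrrCharacter F, (η : F → ℂ) y * (η : F → ℂ) (D.el j) =
      if IsConj y (D.el (-j)) then (Nat.card (Subgroup.centralizer ({y} : Set F)) : ℂ) else 0 := by
  refine Eq.trans ?_ ((Char.sum_irr_mul_conj y (D.el (-j))).trans (by congr))
  refine Finset.sum_congr rfl fun η _ => ?_
  rw [D.el_neg, Char.irr_inv η.2, Complex.conj_conj]

namespace SignedMatch

variable (S : SignedMatch K D)

/-- The kernel. -/
noncomputable def mu (x : H) (y : F) : ℂ :=
  signedBijectionKernel (Set.univ : Set (IrrCharacter F)) S.I S.ε x y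

theorem mu_eq (x : H) (y : F) :
    S.mu x y = ∑ η : IrrCharacter F, ((S.ε η : ℂ) * (η : F → ℂ) y) * (S.I η : H → ℂ) x := by
  rw [mu, signedBijectionKernel, finsum_mem_univ, finsum_eq_sum_of_fintype]
  exact Finset.sum_congr rfl fun η _ => by ring

theorem sum_beta (g : IrrCharacter H → ℂ) :
    ∑ ξ ∈ Finset.univ.filter (· ∈ K.β.1), g ξ = ∑ η : IrrCharacter F, g (S.I η) := by
  symm
  refine Finset.sum_bij (fun η _ => S.I η)
    (fun η _ => Finset.mem_filter.2 ⟨Finset.mem_univ _, S.bijOn.mapsTo trivial⟩)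
    (fun η _ η' _ h => S.bijOn.injOn trivial trivial h) (fun ξ hξ => ?_) fun _ _ => rfl
  obtain ⟨η, -, h⟩ := S.bijOn.surjOn (Finset.mem_filter.1 hξ).2
  exact ⟨η, Finset.mem_univ _, h⟩

/-- The coefficient vector of an element of the semidirect product. -/
noncomputable def vec (y : F) (ξ : IrrCharacter H) : ℂ :=
  ∑ η : IrrCharacter F, if S.I η = ξ then (S.ε η : ℂ) * (η : F → ℂ) y else 0

theorem sum_vec_mul (y : F) (g : IrrCharacter H → ℂ) :
    ∑ ξ ∈ Finset.univ.filter (· ∈ K.β.1), S.vec y ξ * g ξ =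
      ∑ η : IrrCharacter F, ((S.ε η : ℂ) * (η : F → ℂ) y) * g (S.I η) := by
  simp only [vec, Finset.sum_mul]
  rw [Finset.sum_comm]
  refine Finset.sum_congr rfl fun η _ => ?_
  rw [Finset.sum_eq_single (S.I η) (fun ξ _ hne => by rw [if_neg (Ne.symm hne), zero_mul])
    (fun hn => absurd (Finset.mem_filter.2 ⟨Finset.mem_univ _, S.bijOn.mapsTo trivial⟩) hn),
    if_pos rfl]

theorem sum_vec_cev (y : F) {j : ZMod (p ^ K.b)} (hj : j ≠ 0) :
    ∑ η : IrrCharacter F, ((S.ε η : ℂ) * (η : F → ℂ) y) * cev (K.coeff₀ (S.I η)) j =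
      if IsConj y (D.el (-j)) then (Nat.card (Subgroup.centralizer ({y} : Set F)) : ℂ) else 0 := by
  rw [← sum_irr_apply_mul (D := D) y j]
  refine Finset.sum_congr rfl fun η _ => ?_
  rw [S.rel η j hj]
  have : (S.ε η : ℂ) * (S.ε η : ℂ) = 1 := by rcases S.sign η with h | h <;> simp [h]
  linear_combination (η : F → ℂ) y * (η : F → ℂ) (D.el j) * this

/-- Singular elements against regular elements. -/
theorem mu_singular_regular {x : H} (hx : p ∣ orderOf x) {y : F} (hy : ¬ p ∣ orderOf y) :
    S.mu x y = 0 := by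
  rw [mu_eq, ← S.sum_vec_mul y fun ξ => (ξ : H → ℂ) x]
  refine K.sum_eq_zero_of_cev (S.vec y) (fun j hj => ?_) x hx
  rw [S.sum_vec_mul y fun ξ => cev (K.coeff₀ ξ) j, S.sum_vec_cev y hj, if_neg]
  intro hc
  obtain ⟨c, hc⟩ := isConj_iff.1 hc
  apply hy
  rw [← MulEquiv.orderOf_eq (MulAut.conj c) y, MulAut.conj_apply, hc]
  exact (D.singular_iff rfl).2 ⟨-j, neg_ne_zero.2 hj, rfl⟩

/-- Regular elements against singular elements. -/
theorem mu_regular_singular {x : H} (hx : ¬ p ∣ orderOf x) {y : F} (hy : p ∣ orderOf y) :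
    S.mu x y = 0 := by
  obtain ⟨j, hj, rfl⟩ := (D.singular_iff rfl).1 hy
  rw [mu_eq, Finset.sum_congr rfl fun η _ => by rw [← S.rel η j hj]]
  rw [← S.sum_beta fun ξ => cev (K.coeff₀ ξ) j * (ξ : H → ℂ) x]
  rw [Finset.sum_congr rfl fun ξ _ => mul_comm _ _]
  refine K.sum_cev_eq_zero (fun ξ => (ξ : H → ℂ) x) (fun g hg => ?_) hj
  have h := Brauer.weakOrth_of_integral K.isPModular K.β.1
    (Block.blockCoeff_memLocalRing K.β.2) (x := x) hx (y := g⁻¹) (by rwa [orderOf_inv])
  rw [finsum_mem_eq_toFinset_sum, show K.β.1.toFinset = Finset.univ.filter (· ∈ K.β.1) by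
    ext; simp] at h
  rw [← h]
  refine Finset.sum_congr rfl fun ξ _ => ?_
  rw [Char.irr_inv ξ.2, Complex.conj_conj]

theorem memLocalRing_coeff (η : IrrCharacter F) (y : F) :
    MemLocalRing M ((S.ε η : ℂ) * (η : F → ℂ) y) :=
  (Block.localRing M).mul_mem (intCast_mem (Block.localRing M) _) (Block.char_memLocalRing η.2 y)

/-- Both regular, the centralizer in the group. -/
theorem mu_regular_div_left {x : H} (hx : ¬ p ∣ orderOf x) {y : F} (hy : ¬ p ∣ orderOf y) :
    MemLocalRing M (S.mu x y / (Nat.card (Subgroup.centralizer ({x} : Set H)) : ℂ)) := by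
  set f : H → ℂ := ∑ η : IrrCharacter F, ((S.ε η : ℂ) * (η : F → ℂ) y) • (S.I η : H → ℂ) with hf
  have hfx : ∀ g, f g = S.mu g y := fun g => by
    rw [hf, Finset.sum_apply, mu_eq]
    rfl
  have hcl : IsClassFunction H f := fun g c => by
    simp only [hfx, mu_eq, Char.irr_isClassFunction (Subtype.prop _) g c]
  have hint : ∀ ξ : IrrCharacter H, MemLocalRing M (classInner f (ξ : H → ℂ)) := fun ξ => by
    rw [hf, Char.classInner_sum_left]
    refine (Block.localRing M).sum_mem fun η _ => ?_
    rw [Char.classInner_smul_left, Char.classInner_irrCharacter]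
    refine (Block.localRing M).mul_mem (S.memLocalRing_coeff η y) ?_
    split_ifs
    · exact (Block.localRing M).one_mem
    · exact (Block.localRing M).zero_mem
  have h := Brauer.memLocalRing_div_centralizer_of_vanish_singular K.isPModular f hcl hint
    (fun g hg => by rw [hfx]; exact S.mu_singular_regular hg hy) hx
  rw [hfx] at h
  exact memLocalRing_div_of_pPart K.isPModular Nat.card_pos.ne' h

/-- The value at the identity. -/
theorem mu_one (x : H) (hx : ¬ p ∣ orderOf x) :
    S.mu x 1 = ((p ^ K.b : ℕ) : ℂ) *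
      ∑ η ∈ Finset.univ.filter (fun η => D.IsTriv η), (S.ε η : ℂ) * (S.I η : H → ℂ) x := by
  have h1 : ∑ j : ZMod (p ^ K.b), S.mu x (D.el j) = S.mu x 1 := by
    rw [Finset.sum_eq_single (0 : ZMod (p ^ K.b)) (fun j _ hj => S.mu_regular_singular hx
      ((D.singular_iff rfl).2 ⟨j, hj, rfl⟩)) (by simp), D.el_zero]
  rw [← h1]
  simp only [mu_eq]
  rw [Finset.sum_comm, Finset.mul_sum, Finset.sum_filter]
  refine Finset.sum_congr rfl fun η _ => ?_
  rw [← Finset.sum_mul, ← Finset.mul_sum]
  by_cases hη : D.IsTriv η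
  · rw [if_pos hη, Finset.sum_congr rfl fun j _ => D.isTriv_apply hη j, Finset.sum_const,
      Finset.card_univ, ZMod.card, nsmul_eq_mul, mul_one]
    ring
  · obtain ⟨i, hi, he⟩ := D.exists_ind hη
    rw [if_neg hη, he, D.sum_ind_el hi, mul_zero, zero_mul]

/-- Both regular, the centralizer in the semidirect product. -/
theorem mu_regular_div_right {x : H} (hx : ¬ p ∣ orderOf x) {y : F} (hy : ¬ p ∣ orderOf y) :
    MemLocalRing M (S.mu x y / (Nat.card (Subgroup.centralizer ({y} : Set F)) : ℂ)) := by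
  have hq : ((p ^ K.b : ℕ) : ℂ) ≠ 0 := Nat.cast_ne_zero.2 (pow_ne_zero _ hp.out.ne_zero)
  by_cases hy1 : y = 1
  · subst hy1
    have htop : Subgroup.centralizer ({(1 : F)} : Set F) = ⊤ := eq_top_iff.2 fun g _ => by
      simp [Subgroup.mem_centralizer_singleton_iff]
    rw [htop, Subgroup.card_top, D.card_eq, S.mu_one x hx, Nat.cast_mul,
      mul_div_mul_left _ _ hq, div_eq_mul_inv]
    refine (Block.localRing M).mul_mem ((Block.localRing M).sum_mem fun η _ => ?_)
      (Block.memLocalRing_natCast_inv K.isPModular K.not_dvd_card_E)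
    exact (Block.localRing M).mul_mem (intCast_mem (Block.localRing M) _)
      (Block.char_memLocalRing (S.I η).2 x)
  · rw [div_eq_mul_inv]
    refine (Block.localRing M).mul_mem ?_
      (Block.memLocalRing_natCast_inv K.isPModular fun hdvd => ?_)
    · rw [mu_eq]
      exact (Block.localRing M).sum_mem fun η _ => (Block.localRing M).mul_mem
        (S.memLocalRing_coeff η y) (Block.char_memLocalRing (S.I η).2 x)
    · obtain ⟨w, hw⟩ := exists_prime_orderOf_dvd_card' p hdvd
      have hw' : orderOf (w : F) = p := by rw [Subgroup.orderOf_coe, hw]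
      obtain ⟨j, hj, hje⟩ := (D.singular_iff rfl (g := (w : F))).1 (by rw [hw'])
      have hyC : y ∈ Subgroup.centralizer ({D.el j} : Set F) := by
        rw [Subgroup.mem_centralizer_singleton_iff, hje]
        exact (Subgroup.mem_centralizer_singleton_iff.1 w.2).symm
      rw [D.centralizer_el hj] at hyC
      obtain ⟨i, rfl⟩ := D.mem_Q.1 hyC
      by_cases hi : i = 0
      · exact hy1 (by rw [hi, D.el_zero])
      · exact hy ((D.singular_iff rfl).2 ⟨i, hi, rfl⟩)

/-- Both singular. -/
theorem mu_singular_div {x : H} (hx : p ∣ orderOf x) {i : ZMod (p ^ K.b)} (hi : i ≠ 0) :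
    MemLocalRing M (S.mu x (D.el i) / (Nat.card (Subgroup.centralizer ({x} : Set H)) : ℂ)) ∧
      MemLocalRing M (S.mu x (D.el i) /
        (Nat.card (Subgroup.centralizer ({D.el i} : Set F)) : ℂ)) := by
  set q : ℂ := ((p ^ K.b : ℕ) : ℂ) with hqdef
  have hq : q ≠ 0 := Nat.cast_ne_zero.2 (pow_ne_zero _ hp.out.ne_zero)
  set U := Element.pPart p x with hU
  set s := Element.pComplPart p x with hs
  obtain ⟨l, hl⟩ : ∃ l, orderOf U = p ^ l := ⟨_, Element.orderOf_pPart_eq_pow hp.out x⟩
  have hU1 : U ≠ 1 := fun h => by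
    have h1 := Element.orderOf_pPart_eq_pow hp.out x
    rw [← hU, h, orderOf_one] at h1
    exact absurd h1 (Nat.one_lt_pow (hp.out.factorization_pos_of_dvd (orderOf_pos x).ne' hx).ne'
      hp.out.one_lt).ne
  have hreg : ¬ p ∣ orderOf s :=
    hp.out.coprime_iff_not_dvd.1 (Element.coprime_orderOf_pComplPart hp.out x).symm
  have hsC : s ∈ Subgroup.centralizer (Subgroup.zpowers U : Set H) := by
    rw [Brauer.centralizer_zpowers_eq, Subgroup.mem_centralizer_singleton_iff]
    exact (Element.commute_pPart_pComplPart p x).symm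
  have hxUs : x = U * s := (Element.pPart_mul_pComplPart p x).symm
  set term : Blk M (Subgroup.centralizer (Subgroup.zpowers U : Set H)) → ℂ := fun f =>
    ∑ η : IrrCharacter F, ((S.ε η : ℂ) * (η : F → ℂ) (D.el i)) *
      Phi (⟨Subgroup.zpowers U, f⟩ : PairIdx M H) U (S.I η : H → ℂ) s with hterm
  have hmu : S.mu x (D.el i) = ∑ f, term f := by
    rw [mu_eq, hterm, Finset.sum_comm]
    refine Finset.sum_congr rfl fun η _ => ?_
    rw [← Finset.mul_sum, sum_phi, ← hxUs]
  have key : ∀ f, MemLocalRing M (term f / (Nat.card (Subgroup.centralizer ({x} : Set H)) : ℂ)) ∧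
      MemLocalRing M (term f / q) := by
    intro f
    by_cases hpair : PairOf (blockSysTop M) (pairSys M H) p K.β ⟨Subgroup.zpowers U, f⟩
    swap
    · have h0 : term f = 0 := Finset.sum_eq_zero fun η _ => by
        rw [phi_eq_zero K.isPModular hl (S.bijOn.mapsTo trivial) f hpair hsC hreg, mul_zero]
      rw [h0, zero_div, zero_div]
      exact ⟨(Block.localRing M).zero_mem, (Block.localRing M).zero_mem⟩
    obtain ⟨k, b', hk, hb'⟩ := K.maxPair.exists_conj_sle hpair
    have h1 : b'.1 = Subgroup.zpowers (k * U * k⁻¹) := by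
      rw [← hk.1]
      exact MonoidHom.map_zpowers _ _
    obtain ⟨j, hj⟩ := K.exists_el (hb'.le (h1 ▸ Subgroup.mem_zpowers _))
    have hj0 : j ≠ 0 := by
      rintro rfl
      rw [K.el_zero] at hj
      exact hU1 (by simpa [mul_assoc] using congrArg (fun z => k⁻¹ * z * k) hj.symm)
    rw [← hj] at h1
    have hb'' := K.eq_pr (K.el_mem j) hb' h1
    subst hb''
    have hs' : k * s * k⁻¹ ∈ Subgroup.centralizer (Subgroup.zpowers (K.el j) : Set H) := by
      rw [Brauer.centralizer_zpowers_eq, Subgroup.mem_centralizer_singleton_iff, hj]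
      have := Subgroup.mem_centralizer_iff.1 hsC _ (Subgroup.mem_zpowers U)
      calc k * s * k⁻¹ * (k * U * k⁻¹) = k * (s * U) * k⁻¹ := by group
        _ = k * (U * s) * k⁻¹ := by rw [this]
        _ = k * U * k⁻¹ * (k * s * k⁻¹) := by group
    have hreg' : ¬ p ∣ orderOf (k * s * k⁻¹) := by
      rwa [show k * s * k⁻¹ = MulAut.conj k s from rfl, MulEquiv.orderOf_eq]
    have e : ∀ ξ : IrrCharacter H, Phi (⟨Subgroup.zpowers U, f⟩ : PairIdx M H) U (ξ : H → ℂ) s =
        cev (K.coeff₀ ξ) j * K.Φ K.θ₀ j (k * s * k⁻¹) := by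
      intro ξ
      rw [← phi_cjRel hk U (Char.irr_isClassFunction ξ.2) s, ← hj, K.phi_eq_cev ξ hj0 hs' hreg']
    have hval : term f = (if IsConj (D.el i) (D.el (-j)) then q else 0) *
        K.Φ K.θ₀ j (k * s * k⁻¹) := by
      simp only [hterm, e, ← mul_assoc, ← Finset.sum_mul]
      rw [S.sum_vec_cev (D.el i) hj0, D.card_centralizer_el hi]
    have hcard : Nat.card (Subgroup.centralizer ({x} : Set H)) =
        Nat.card (Subgroup.centralizer ({K.el j * (k * s * k⁻¹)} : Set H)) := by
      have hkx : K.el j * (k * s * k⁻¹) = k * x * k⁻¹ := by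
        rw [hj, conj_mul, ← hxUs]
      have hmap : (Subgroup.centralizer ({x} : Set H)).map (MulAut.conj k).toMonoidHom =
          Subgroup.centralizer ({k * x * k⁻¹} : Set H) := by
        ext g
        rw [Subgroup.mem_centralizer_singleton_iff]
        constructor
        · rintro ⟨c, hc, rfl⟩
          have := Subgroup.mem_centralizer_singleton_iff.1 hc
          show MulAut.conj k c * MulAut.conj k x = MulAut.conj k x * MulAut.conj k c
          rw [← map_mul, ← map_mul, this]
        · intro hg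
          refine ⟨(MulAut.conj k).symm g, Subgroup.mem_centralizer_singleton_iff.2 ?_,
            (MulAut.conj k).apply_symm_apply g⟩
          apply (MulAut.conj k).injective
          rw [map_mul, map_mul, MulEquiv.apply_symm_apply, MulAut.conj_apply]
          exact hg
      rw [hkx, ← hmap, Subgroup.card_map_of_injective (MulAut.conj k).injective]
    rw [hval, hcard]
    split_ifs
    · exact ⟨memLocalRing_Φ_div K hj0 hs' hreg', by
        rw [mul_div_cancel_left₀ _ hq]; exact memLocalRing_Φ K j _⟩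
    · simp only [zero_mul, zero_div]
      exact ⟨(Block.localRing M).zero_mem, (Block.localRing M).zero_mem⟩
  rw [D.card_centralizer_el hi, hmu, Finset.sum_div, Finset.sum_div]
  exact ⟨(Block.localRing M).sum_mem fun f _ => (key f).1,
    (Block.localRing M).sum_mem fun f _ => (key f).2⟩

/-- The perfection. -/
theorem isPerfectFun :
    IsPerfectFun p M (signedBijectionKernel (Set.univ : Set (IrrCharacter F)) S.I S.ε) := by
  intro x y
  show MemLocalRing M (S.mu x y / _) ∧ MemLocalRing M (S.mu x y / _) ∧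
    ((IsPRegular p x ↔ IsPRegular p y) ∨ S.mu x y = 0)
  by_cases hx : p ∣ orderOf x <;> by_cases hy : p ∣ orderOf y
  · obtain ⟨i, hi, rfl⟩ := (D.singular_iff rfl).1 hy
    exact ⟨(S.mu_singular_div hx hi).1, (S.mu_singular_div hx hi).2,
      Or.inl (by simp only [IsPRegular, hx, hy])⟩
  · rw [S.mu_singular_regular hx hy, zero_div, zero_div]
    exact ⟨(Block.localRing M).zero_mem, (Block.localRing M).zero_mem, Or.inr rfl⟩
  · rw [S.mu_regular_singular hx hy, zero_div, zero_div]
    exact ⟨(Block.localRing M).zero_mem, (Block.localRing M).zero_mem, Or.inr rfl⟩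
  · exact ⟨S.mu_regular_div_left hx hy, S.mu_regular_div_right hx hy,
      Or.inl (by simp only [IsPRegular, hx, hy])⟩

theorem isPerfectIsometry : IsPerfectIsometry p M (Set.univ : Set (IrrCharacter F)) K.β.1 S.I S.ε :=
  ⟨S.bijOn, fun η _ => S.sign η, S.isPerfectFun⟩

end SignedMatch

end Cfsg.Agent.CycIso
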