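import Cfsg.Agent.BlockCount.CyclicForm
import Cfsg.Agent.BlockCount.CyclicInertia
import Cfsg.Agent.CycIso.Orbits
import Cfsg.Agent.CycIso.Combinatorics
import Cfsg.Agent.CycIso.Frob

/-!
The characters of a block with cyclic defect group and those of the semidirect product of the
defect group by the inertial quotient: a signed bijection matching the coefficients.
-/

set_option autoImplicit false
set_option linter.style.haveILetI false
set_option linter.unusedSectionVars false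

namespace Cfsg.Agent.CycIso

open MonoidAlgebra Cfsg
open Cfsg.Agent.BrauerPairs Cfsg.Agent.BrauerPairs.Nil
open Cfsg.Agent.BlkChar.Cyclo
open Cfsg.Agent.BlockCount (CycData)
open scoped ComplexConjugate Classical

universe u v

variable {p : ℕ} [hp : Fact p.Prime] {M : Ideal AlgInt} [M.IsPrime] [CharP (Block.ResF M) p]
  {H : Type u} [Group H] [Fintype H] (K : CycData p M H)

theorem sum_degree_cev {j : ZMod (p ^ K.b)} (hj : j ≠ 0) :
    ∑ ξ ∈ Finset.univ.filter (· ∈ K.β.1), (ξ : H → ℂ) 1 * cev (K.coeff₀ ξ) j = 0 := by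
  refine K.sum_cev_eq_zero (fun ξ => (ξ : H → ℂ) 1) (fun g hg => ?_) hj
  have h := Brauer.weakOrth_of_integral K.isPModular K.β.1
    (Block.blockCoeff_memLocalRing K.β.2) (x := 1) (by simpa using hp.out.one_lt.ne') hg
  rw [finsum_mem_eq_toFinset_sum] at h
  have h2 := congrArg conj h
  rw [map_sum, map_zero, show K.β.1.toFinset = Finset.univ.filter (· ∈ K.β.1) by ext; simp] at h2
  rw [← h2]
  refine Finset.sum_congr rfl fun ξ _ => ?_
  rw [map_mul, Complex.conj_conj, (BlockVal.irr_one_eq_charDegree ξ).1, map_natCast]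

/-- The number of characters, written with the orbits. -/
theorem card_orb_eq :
    Nat.card (Orb K.E) = (p ^ K.b - 1) / Nat.card K.E := by
  have h := card_orb K.E K.one_lt fun r hr l hl h => K.free hr hl h
  rw [Nat.card_eq_fintype_card (α := Orb K.E)]
  have he : 0 < Nat.card K.E := Nat.card_pos
  rw [show p ^ K.b - 1 = Nat.card K.E * Fintype.card (Orb K.E) by omega,
    Nat.mul_div_cancel_left _ he]

/-- The coefficient matrix of a block with the expected number of characters. -/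
theorem exists_coeff_split
    (hk : Nat.card K.β.1 = Nat.card K.E + (p ^ K.b - 1) / Nat.card K.E) :
    ∃ (y : Orb K.E → K.β.1) (s : ℤ), Function.Injective y ∧ (s = 1 ∨ s = -1) ∧
      (∀ o, ∀ j ≠ (0 : ZMod (p ^ K.b)),
        cev (K.coeff₀ (y o).1) j = (s : ℂ) * orbSum K.E o.rep j) ∧
      ∀ x : K.β.1, (∀ o, y o ≠ x) → ∃ d : ℤ, (d = 1 ∨ d = -1) ∧
        ∀ j ≠ (0 : ZMod (p ^ K.b)), cev (K.coeff₀ x.1) j = -(d : ℂ) := by
  haveI : Fact (1 < p ^ K.b) := ⟨K.one_lt⟩
  have hfree : ∀ r ∈ K.E, ∀ l : ZMod (p ^ K.b), l ≠ 0 → (r : ZMod (p ^ K.b)) * l = l → r = 1 :=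
    fun r hr l hl h => K.free hr hl h
  set X := {χ : IrrCharacter H // χ ∈ K.β.1}
  set a : X → ZMod (p ^ K.b) → ℤ := fun x => K.coeff₀ x.1 with hadef
  have ha : ∀ x, a x 0 = 0 := fun x => by simp [a, CycData.coeff₀]
  have hinv : ∀ x, ∀ r ∈ K.E, ∀ j : ZMod (p ^ K.b), j ≠ 0 →
      cev (a x) ((r : ZMod (p ^ K.b)) * j) = cev (a x) j := fun x r hr j hj => K.cev_inv x.1 hr hj
  have hβsum : ∀ f : IrrCharacter H → ℂ, (∀ χ, χ ∉ K.β.1 → f χ = 0) →
      ∑ ξ : X, f ξ.1 = ∑ χ : IrrCharacter H, f χ := by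
    intro f hf
    rw [← Finset.sum_subtype (Finset.univ.filter (· ∈ K.β.1)) (by simp) f,
      Finset.sum_filter_of_ne fun χ _ h => by_contra fun h' => h (hf χ h')]
  have hnorm : ∀ j : ZMod (p ^ K.b), j ≠ 0 →
      ∑ x, cev (a x) j * conj (cev (a x) j) = ((p ^ K.b : ℕ) : ℂ) := fun j hj => by
    rw [hβsum (fun χ => cev (K.coeff₀ χ) j * conj (cev (K.coeff₀ χ) j))
      (fun χ hχ => by rw [K.cev_eq_zero hχ hj, zero_mul]), K.sum_cev_self hj]
  have horth : ∀ j j' : ZMod (p ^ K.b), j ≠ 0 → j' ≠ 0 →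
      (¬ ∃ r ∈ K.E, (r : ZMod (p ^ K.b)) * j = j') →
      ∑ x, cev (a x) j * conj (cev (a x) j') = 0 := fun j j' hj hj' hn => by
    rw [hβsum (fun χ => cev (K.coeff₀ χ) j * conj (cev (K.coeff₀ χ) j'))
      (fun χ hχ => by rw [K.cev_eq_zero hχ hj, zero_mul]), K.sum_cev_orth hj hj' hn]
  have hn0 : ((p ^ K.b : ℕ) : ℂ) ≠ 0 := Nat.cast_ne_zero.2 (pow_ne_zero _ hp.out.ne_zero)
  -- the degrees
  set v : X → ℤ := fun x => (charDegree (x.1 : H → ℂ) : ℤ) with hvdef
  have hv : ∀ i : ZMod (p ^ K.b), ∑ x, v x * a x i = 0 := by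
    intro i
    apply Int.cast_injective (α := ℂ)
    refine mul_left_cancel₀ hn0 ?_
    rw [Int.cast_zero, mul_zero, Int.cast_sum, Finset.mul_sum]
    have e : ∀ x : X, ((p ^ K.b : ℕ) : ℂ) * ((v x * a x i : ℤ) : ℂ) =
        ∑ j ∈ Finset.univ.erase (0 : ZMod (p ^ K.b)), ((x.1 : H → ℂ) 1 * cev (a x) j) *
          ((ZMod.stdAddChar (-(i * j)) : ℂ) - 1) := by
      intro x
      rw [Int.cast_mul, mul_left_comm, BlockCount.CyclicColumns.mul_coeff_eq (ha x),
        Finset.mul_sum]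
      refine Finset.sum_congr rfl fun j _ => ?_
      rw [(BlockVal.irr_one_eq_charDegree x.1).1, hvdef]
      push_cast
      ring
    rw [Finset.sum_congr rfl fun x _ => e x, Finset.sum_comm]
    refine Finset.sum_eq_zero fun j hj => ?_
    rw [← Finset.sum_mul, ← Finset.sum_subtype (Finset.univ.filter (· ∈ K.β.1)) (by simp)
      (fun χ : IrrCharacter H => (χ : H → ℂ) 1 * cev (K.coeff₀ χ) j),
      sum_degree_cev K (Finset.mem_erase.1 hj).1, zero_mul]
  set A : X → Orb K.E → ℤ := fun x o => a x o.rep with hA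
  have hout : ∀ x {i : ZMod (p ^ K.b)} (hi : i ≠ 0), a x i = A x (Orb.mk K.E hi) := by
    intro x i hi
    obtain ⟨r, hr, h⟩ := Orb.exists_rep_mul (E := K.E) hi
    show a x i = a x _
    conv_lhs => rw [← h]
    exact coeff_const K.E a ha hinv x hr _
  haveI : Nonempty (Orb K.E) := ⟨Orb.mk K.E (one_ne_zero (α := ZMod (p ^ K.b)))⟩
  have hsum_eq : ∀ x, ∀ j : ZMod (p ^ K.b), cev (a x) j =
      ∑ i ∈ Finset.univ.erase (0 : ZMod (p ^ K.b)), (a x i : ℂ) * ZMod.stdAddChar (j * i) := by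
    intro x j
    rw [cev, Finset.sum_erase]
    rw [ha, Int.cast_zero, zero_mul]
  obtain ⟨y, s, hy, hs, hY, hX⟩ := exists_split (a := A) (e := Nat.card K.E) (v := v)
    (fun x => by
      by_contra hcon
      push Not at hcon
      apply K.cev_ne_zero x.2 (one_ne_zero (α := ZMod (p ^ K.b)))
      show cev (a x) 1 = 0
      rw [hsum_eq]
      refine Finset.sum_eq_zero fun i hi => ?_
      rw [hout x (Finset.mem_erase.1 hi).1, hcon, Int.cast_zero, zero_mul])
    (fun o o' => by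
      simp only [hA]
      rw [gram_cyclic K.E K.one_lt hfree a ha hinv hnorm horth o.rep_ne_zero o'.rep_ne_zero]
      congr 1
      by_cases hoo : o = o'
      · rw [if_pos hoo, if_pos]
        subst hoo
        exact ⟨1, K.E.one_mem, by simp⟩
      · rw [if_neg hoo, if_neg fun h => hoo (Orb.eq_of_rel h)])
    (by
      rw [← Nat.card_eq_fintype_card, ← Nat.card_eq_fintype_card (α := Orb K.E), card_orb_eq]
      exact hk)
    (fun x => Int.natCast_pos.2 (Nat.pos_of_ne_zero (BlockVal.irr_one_eq_charDegree x.1).2))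
    (fun o => hv o.rep)
  refine ⟨y, s, hy, hs, fun o j _ => ?_, fun x hx => ?_⟩
  · show cev (a (y o)) j = _
    rw [cev, orbSum, Finset.mul_sum]
    set S : Finset (ZMod (p ^ K.b)) := (Finset.univ : Finset K.E).image
      (fun r : K.E => ((r : (ZMod (p ^ K.b))ˣ) : ZMod (p ^ K.b)) * o.rep)
    rw [← Finset.sum_subset (Finset.subset_univ S)]
    · rw [Finset.sum_image]
      · refine Finset.sum_congr rfl fun r _ => ?_
        have hne : ((r : (ZMod (p ^ K.b))ˣ) : ZMod (p ^ K.b)) * o.rep ≠ 0 :=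
          fun h => o.rep_ne_zero ((Units.mul_right_eq_zero _).1 h)
        have e : Orb.mk K.E hne = o := by
          conv_rhs => rw [← Orb.mk_rep o]
          refine (Orb.mk_eq_iff hne o.rep_ne_zero).2 ⟨(r : (ZMod (p ^ K.b))ˣ)⁻¹,
            K.E.inv_mem r.2, ?_⟩
          rw [← mul_assoc, Units.inv_mul, one_mul]
        rw [hout (y o) hne, e, hY, if_pos rfl, mul_comm j]
      · intro r _ r' _ h
        refine Subtype.ext (inv_mul_eq_one.1 (hfree ((r : (ZMod (p ^ K.b))ˣ)⁻¹ * r')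
          (K.E.mul_mem (K.E.inv_mem r.2) r'.2) o.rep o.rep_ne_zero ?_))
        simp only at h
        rw [Units.val_mul, mul_assoc, ← h, ← mul_assoc, Units.inv_mul, one_mul]
    · intro i _ hi
      by_cases hi0 : i = 0
      · rw [hi0, ha, Int.cast_zero, zero_mul]
      · rw [hout (y o) hi0, hY, if_neg, Int.cast_zero, zero_mul]
        intro h
        apply hi
        obtain ⟨r, hr, hr'⟩ := Orb.exists_rep_mul (E := K.E) hi0
        rw [← h] at hr'
        exact Finset.mem_image.2 ⟨⟨r, hr⟩, Finset.mem_univ _, hr'⟩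
  · obtain ⟨d, hd, hd'⟩ := hX x hx
    refine ⟨d, hd, fun j hj => ?_⟩
    show cev (a x) j = _
    rw [hsum_eq, Finset.sum_congr rfl fun i hi => by
      rw [hout x (Finset.mem_erase.1 hi).1, hd'], ← Finset.mul_sum]
    have h := sum_stdAddChar_mul (q := p ^ K.b) j
    rw [if_neg hj, ← Finset.add_sum_erase Finset.univ _ (Finset.mem_univ (0 : ZMod (p ^ K.b))),
      zero_mul, AddChar.map_zero_eq_one, Finset.sum_congr rfl fun i _ => by rw [mul_comm i j]] at h
    linear_combination (d : ℂ) * h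

/-- A signed bijection from the characters of the semidirect product onto the block. -/
structure SignedMatch {F : Type v} [Group F] [Fintype F] (D : FrobData (p ^ K.b) K.E F) where
  /-- The bijection. -/
  I : IrrCharacter F → IrrCharacter H
  /-- The signs. -/
  ε : IrrCharacter F → ℤ
  bijOn : Set.BijOn I Set.univ K.β.1
  sign : ∀ η, ε η = 1 ∨ ε η = -1
  const : ∀ η η', ¬ D.IsTriv η → ¬ D.IsTriv η' → ε η = ε η'
  rel : ∀ η, ∀ j ≠ (0 : ZMod (p ^ K.b)),
    cev (K.coeff₀ (I η)) j = (ε η : ℂ) * (η : F → ℂ) (D.el j)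

theorem exists_signedMatch {F : Type v} [Group F] [Fintype F] (D : FrobData (p ^ K.b) K.E F)
    (hk : Nat.card K.β.1 = Nat.card K.E + (p ^ K.b - 1) / Nat.card K.E) :
    Nonempty (SignedMatch K D) := by
  obtain ⟨y, s, hy, hs, hY, hX⟩ := exists_coeff_split K hk
  choose d hd hd' using fun x : {x : K.β.1 // ∀ o, y o ≠ x} => hX x.1 x.2
  -- the trivial characters and the others
  have hcard : Nat.card {η : IrrCharacter F // D.IsTriv η} =
      Nat.card {x : K.β.1 // ∀ o, y o ≠ x} := by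
    rw [D.card_triv]
    have h2 := Nat.card_congr (Equiv.sumCompl (fun x : K.β.1 => ∀ o, y o ≠ x))
    rw [Nat.card_sum, hk, show Nat.card {x : K.β.1 // ¬ ∀ o, y o ≠ x} = Nat.card (Orb K.E) from
      (Nat.card_congr (Equiv.ofBijective
        (fun o => (⟨y o, fun h => h o rfl⟩ : {x : K.β.1 // ¬ ∀ o, y o ≠ x}))
        ⟨fun _ _ h => hy (congrArg Subtype.val h), fun x => by
          have h := x.2
          push Not at h
          obtain ⟨o, ho⟩ := h
          exact ⟨o, Subtype.ext ho⟩⟩)).symm, card_orb_eq] at h2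
    omega
  set R : {η : IrrCharacter F // D.IsTriv η} ≃ {x : K.β.1 // ∀ o, y o ≠ x} :=
    Finite.equivFinOfCardEq hcard |>.trans (Finite.equivFin _).symm
  choose i hi0 hi using fun η : {η : IrrCharacter F // ¬ D.IsTriv η} => D.exists_ind η.2
  set o : {η : IrrCharacter F // ¬ D.IsTriv η} → Orb K.E := fun η => Orb.mk K.E (hi0 η) with ho
  have horb : ∀ η, ∀ j, (η.1 : F → ℂ) (D.el j) = orbSum K.E (o η).rep j := by
    intro η j
    rw [hi η, (D.ind_eq_iff (hi0 η) (o η).rep_ne_zero).2 (Orb.exists_rep_mul (hi0 η)), D.ind_el]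
  set I₀ : IrrCharacter F → K.β.1 := fun η =>
    if h : D.IsTriv η then (R ⟨η, h⟩).1 else y (o ⟨η, h⟩) with hI₀
  refine ⟨⟨fun η => (I₀ η).1,
    fun η => if h : D.IsTriv η then -d (R ⟨η, h⟩) else s, ⟨fun η _ => (I₀ η).2, ?_, ?_⟩,
    fun η => ?_, fun η η' h h' => by simp only [dif_neg h, dif_neg h'], fun η j hj => ?_⟩⟩
  · intro η _ η' _ h
    have h' : I₀ η = I₀ η' := Subtype.ext h
    simp only [hI₀] at h'
    by_cases hη : D.IsTriv η <;> by_cases hη' : D.IsTriv η'
    · rw [dif_pos hη, dif_pos hη'] at h'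
      exact congrArg Subtype.val (R.injective (Subtype.ext h'))
    · rw [dif_pos hη, dif_neg hη'] at h'
      exact absurd h'.symm ((R ⟨η, hη⟩).2 _)
    · rw [dif_neg hη, dif_pos hη'] at h'
      exact absurd h' ((R ⟨η', hη'⟩).2 _)
    · rw [dif_neg hη, dif_neg hη'] at h'
      have h1 := hy h'
      refine Subtype.ext ?_
      rw [hi ⟨η, hη⟩, hi ⟨η', hη'⟩]
      exact (D.ind_eq_iff (hi0 _) (hi0 _)).2 ((Orb.mk_eq_iff (hi0 _) (hi0 _)).1 h1.symm)
  · intro χ hχ
    by_cases hY' : ∀ o, y o ≠ ⟨χ, hχ⟩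
    · obtain ⟨η, hη⟩ := R.surjective ⟨⟨χ, hχ⟩, hY'⟩
      refine ⟨η.1, trivial, ?_⟩
      simp only [hI₀, dif_pos η.2, Subtype.coe_eta, hη]
    · push Not at hY'
      obtain ⟨q, hq⟩ := hY'
      have hnt := D.not_isTriv_ind q.rep_ne_zero
      refine ⟨⟨_, D.isIrr_ind q.rep_ne_zero⟩, trivial, ?_⟩
      have e : o ⟨_, hnt⟩ = q := by
        refine ((Orb.mk_eq_iff (hi0 ⟨_, hnt⟩) q.rep_ne_zero).2 ?_).trans (Orb.mk_rep q)
        exact (D.ind_eq_iff q.rep_ne_zero (hi0 ⟨_, hnt⟩)).1 (hi ⟨_, hnt⟩)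
      simp only [hI₀, dif_neg hnt, e, hq]
  · by_cases hη : D.IsTriv η
    · simp only [dif_pos hη]
      rcases hd (R ⟨η, hη⟩) with h | h <;> simp [h]
    · simp only [dif_neg hη]
      exact hs
  · by_cases hη : D.IsTriv η
    · simp only [hI₀, dif_pos hη]
      rw [hd' _ j hj, D.isTriv_apply hη]
      push_cast
      ring
    · simp only [hI₀, dif_neg hη]
      rw [hY _ j hj, horb ⟨η, hη⟩]

end Cfsg.Agent.CycIso
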